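import Cfsg.Agent.KnownB.Proj.Orth.PlusField

/-! Spinor norms of diagonal and rational isometries of the plus form. -/

set_option autoImplicit false
set_option maxHeartbeats 1000000

namespace Cfsg.Agent.KnownB.Proj.Orth

open Matrix Module
open Cfsg.Agent.Forms (qPlus)

universe u v

variable {F : Type u} [Field F] [Fintype F] {m : ℕ}

theorem sc_eq_diag (u : Fˣ) :
    sc (qPlus m F) u = diagGO m (fun _ => u⁻¹) (u * u) := by
  refine go_ext fun v => ?_
  rw [sc_mulVec, diagGO_apply]
  funext j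
  have hu := u.ne_zero
  rcases j with i | i <;> simp <;> field_simp

theorem mem_isometry_diag (hm : 1 ≤ m) (a : Fin m → Fˣ) :
    (diagGO (F := F) m a 1).1 ∈ Cfsg.isometryGroup F ⇑(qPlus m F) := by
  have hV := exists_ne_qPlus (F := F) (m := m) hm
  refine Forms.mem_isometryGroup_iff.mpr fun v => ?_
  rw [sim_spec hV, sim_diagGO, Units.val_one, one_mul]

/-- The diagonal isometries. -/
noncomputable def diagIso (hm : 1 ≤ m) : (Fin m → Fˣ) →* Cfsg.isometryGroup F ⇑(qPlus m F) :=
  MonoidHom.mk' (fun a => ⟨_, mem_isometry_diag hm a⟩) fun a b => Subtype.ext (by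
    show (diagGO m (a * b) 1).1 = (diagGO m a 1).1 * (diagGO m b 1).1
    have h := diagGO_mul a b (1 : Fˣ) 1
    rw [one_mul] at h
    exact congrArg Subtype.val h)

theorem isoInc_diagIso (hm : 1 ≤ m) (a : Fin m → Fˣ) :
    isoInc (qPlus m F) (diagIso hm a) = diagGO m a 1 := rfl

theorem diagIso_single (hm : 1 ≤ m) (i : Fin m) (u : Fˣ) :
    diagIso hm (Pi.mulSingle i u) =
      (Forms.isometryEquiv _).symm (Forms.reflection (qPlus m F) (planeAt i ((u⁻¹ : Fˣ) : F))) *
      (Forms.isometryEquiv _).symm (Forms.reflection (qPlus m F) (planeAt i 1)) := by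
  have h := diag_plane (F := F) i u⁻¹
  rw [inv_inv] at h
  refine Subtype.ext ?_
  exact congrArg (fun g : GO (qPlus m F) => g.1) h

theorem spinor_const (hm : 1 ≤ m) (h2 : (2 : F) ≠ 0) (u : Fˣ) :
    (IsSquare (u : F) → Forms.spinor (qPlus m F) h2
      (Forms.isometryEquiv _ (diagIso hm fun _ => u)) = 1) ∧
    (¬ IsSquare (u : F) → Forms.spinor (qPlus m F) h2
      (Forms.isometryEquiv _ (diagIso hm fun _ => u)) = (-1) ^ m) := by
  classical
  have hQ := Forms.qPlus_nondegenerate (m := m) (F := F)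
  have hconst : (fun _ : Fin m => u) = ∏ i, Pi.mulSingle i u :=
    (Finset.univ_prod_mulSingle fun _ : Fin m => u).symm
  have hone : Forms.spinor (qPlus m F) h2 (Forms.reflection (qPlus m F)
      (planeAt (⟨0, hm⟩ : Fin m) (1 : F))) = 1 :=
    (Forms.spinor_reflection h2 hQ (by rw [Q_planeAt]; exact one_ne_zero)).1
      (by rw [Q_planeAt]; exact IsSquare.one)
  have key : ∀ i, Forms.spinor (qPlus m F) h2
      (Forms.isometryEquiv _ (diagIso hm (Pi.mulSingle i u))) =
      if IsSquare (u : F) then 1 else -1 := by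
    intro i
    rw [diagIso_single, map_mul, map_mul, MulEquiv.apply_symm_apply, MulEquiv.apply_symm_apply]
    have h1 : Forms.spinor (qPlus m F) h2 (Forms.reflection (qPlus m F) (planeAt i 1)) = 1 :=
      (Forms.spinor_reflection h2 hQ (by rw [Q_planeAt]; exact one_ne_zero)).1
        (by rw [Q_planeAt]; exact IsSquare.one)
    rw [h1, mul_one]
    have hQu : qPlus m F (planeAt i ((u⁻¹ : Fˣ) : F)) = (u : F)⁻¹ := by
      rw [Q_planeAt, Units.val_inv_eq_inv_val]
    have h := Forms.spinor_reflection h2 hQ (v := planeAt i ((u⁻¹ : Fˣ) : F))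
      (by rw [hQu]; exact inv_ne_zero u.ne_zero)
    rw [hQu] at h
    split_ifs with hs
    · exact h.1 hs.inv
    · exact h.2 fun hs' => hs (by simpa using hs'.inv)
  have hall : Forms.spinor (qPlus m F) h2 (Forms.isometryEquiv _ (diagIso hm fun _ => u)) =
      (if IsSquare (u : F) then 1 else -1) ^ m := by
    have h := map_prod (((Forms.spinor (qPlus m F) h2).comp
      (Forms.isometryEquiv (qPlus m F)).toMonoidHom).comp (diagIso (F := F) hm))
      (fun i => Pi.mulSingle i u) Finset.univ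
    rw [← hconst] at h
    simp only [MonoidHom.comp_apply, MulEquiv.coe_toMonoidHom] at h
    rw [h, Finset.prod_congr rfl fun i _ => key i, Finset.prod_const, Finset.card_univ,
      Fintype.card_fin]
  exact ⟨fun h => by rw [hall, if_pos h, one_pow], fun h => by rw [hall, if_neg h]⟩

theorem orthDet_diagIso (hm : 1 ≤ m) (a : Fin m → Fˣ) :
    Forms.orthDet (qPlus m F) (Forms.isometryEquiv _ (diagIso hm a)) = 1 := by
  classical
  suffices h : ((Forms.orthDet (qPlus m F)).comp (Forms.isometryEquiv _).toMonoidHom).comp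
      (diagIso (F := F) hm) = 1 from DFunLike.congr_fun h a
  refine MonoidHom.functions_ext' _ _ _ fun i => MonoidHom.ext fun u => ?_
  show Forms.orthDet (qPlus m F) (Forms.isometryEquiv _ (diagIso hm (Pi.mulSingle i u))) = 1
  rw [diagIso_single, map_mul, map_mul, MulEquiv.apply_symm_apply, MulEquiv.apply_symm_apply]
  refine Units.ext ?_
  rw [Units.val_mul, Forms.orthDet_reflection _ (by rw [Q_planeAt]; exact Units.ne_zero _),
    Forms.orthDet_reflection _ (by rw [Q_planeAt]; exact one_ne_zero)]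
  simp

/-- An isometry of determinant one and trivial spinor norm acts as an inner automorphism. -/
theorem A_iso_mem_inn (hm : 1 ≤ m) (h2 : (2 : F) ≠ 0) (s : Cfsg.isometryGroup F ⇑(qPlus m F))
    (hd : Forms.orthDet (qPlus m F) (Forms.isometryEquiv _ s) = 1)
    (hs : Forms.spinor (qPlus m F) h2 (Forms.isometryEquiv _ s) = 1) :
    A (qPlus m F) (isoInc _ s) ∈ Cfsg.Inn (Cfsg.POmega F ⇑(qPlus m F)) := by
  rw [Inn_eq_map]
  exact ⟨_, ⟨s, (Forms.mem_omega_iff _ s).mpr ((Forms.mem_commutator_iff h2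
    Forms.qPlus_nondegenerate (by simp; omega)).mpr ⟨hd, hs⟩), rfl⟩, rfl⟩

/-- When `-1` is a square, `A` of a diagonal isometry detects its spinor norm. -/
theorem spinor_of_A_inn (hm : 4 ≤ m) (h2 : (2 : F) ≠ 0) (hneg : IsSquare (-1 : F))
    (s : Cfsg.isometryGroup F ⇑(qPlus m F))
    (h : A (qPlus m F) (isoInc _ s) ∈ Cfsg.Inn (Cfsg.POmega F ⇑(qPlus m F))) :
    Forms.spinor (qPlus m F) h2 (Forms.isometryEquiv _ s) = 1 := by
  have hm1 : 1 ≤ m := by omega
  have hV := exists_ne_qPlus (F := F) (m := m) hm1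
  rw [Inn_eq_map] at h
  obtain ⟨_, ⟨t, ht, rfl⟩, ht'⟩ := h
  obtain ⟨w, hw⟩ := (A_eq_one_iff' Forms.qPlus_nondegenerate (by simp; omega)
    (isoInc _ (t⁻¹ * s))).mp (by rw [map_mul, map_mul, map_inv, map_inv, ht', inv_mul_cancel])
  have hsimw : w * w = 1 := by
    rw [← sim_sc (Q := qPlus m F) hV, hw, ← MonoidHom.mem_ker, sim_ker]
    exact ⟨_, rfl⟩
  have hwsq : IsSquare (w : F) := by
    have h' : ((w : F)) * w = 1 := by rw [← Units.val_mul, hsimw, Units.val_one]
    rcases mul_self_eq_one_iff.mp h' with e | e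
    · exact e ▸ IsSquare.one
    · exact e ▸ hneg
  have hconst : t⁻¹ * s = diagIso hm1 (fun _ => w⁻¹) := Subtype.ext (by
    have e : isoInc (qPlus m F) (t⁻¹ * s) = diagGO m (fun _ => w⁻¹) 1 := by
      rw [← hw, sc_eq_diag, hsimw]
    exact congrArg (fun g : GO (qPlus m F) => g.1) e)
  have hspin : Forms.spinor (qPlus m F) h2 (Forms.isometryEquiv _ (t⁻¹ * s)) = 1 := by
    rw [hconst]
    exact (spinor_const hm1 h2 w⁻¹).1 (by rw [Units.val_inv_eq_inv_val]; exact hwsq.inv)
  have hts := ((Forms.mem_commutator_iff h2 Forms.qPlus_nondegenerate (by simp; omega)).mp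
    ((Forms.mem_omega_iff _ t).mp ht)).2
  rwa [map_mul, map_mul, map_inv, map_inv, hts, inv_one, one_mul] at hspin

section Rational

variable {F₀ : Type v} [Field F₀] [Fintype F₀] (j : F₀ →+* F)

theorem mem_isometry_lift (hm : 1 ≤ m) (s : Cfsg.isometryGroup F₀ ⇑(qPlus m F₀)) :
    (liftJ j (fun x => qPlus_comp j x) (isoInc (qPlus m F₀) s)).1 ∈
      Cfsg.isometryGroup F ⇑(qPlus m F) := by
  have hV := exists_ne_qPlus (F := F) (m := m) hm
  have hV₀ := exists_ne_qPlus (F := F₀) (m := m) hm
  refine Forms.mem_isometryGroup_iff.mpr fun v => ?_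
  rw [sim_spec hV, sim_hom j (fun x => qPlus_comp j x) hV hV₀ _ (liftJ_val j _),
    show sim hV₀ (isoInc (qPlus m F₀) s) = 1 by rw [← MonoidHom.mem_ker, sim_ker]; exact ⟨s, rfl⟩,
    map_one, Units.val_one, one_mul]

/-- Extension of scalars on isometries. -/
noncomputable def liftIso (hm : 1 ≤ m) :
    Cfsg.isometryGroup F₀ ⇑(qPlus m F₀) →* Cfsg.isometryGroup F ⇑(qPlus m F) :=
  MonoidHom.mk' (fun s => ⟨_, mem_isometry_lift j hm s⟩) fun a b => Subtype.ext
    (congrArg (fun g : GO (qPlus m F) => g.1) (map_mul ((liftJ j fun x => qPlus_comp j x).comp (isoInc _)) a b))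

/-- Rational isometries of trivial character become inner when rational values are squares. -/
theorem A_lift_iso_mem_inn (hm : 4 ≤ m) (h2 : (2 : F) ≠ 0)
    (hsq : ∀ c : F₀, IsSquare (j c)) (s : Cfsg.isometryGroup F₀ ⇑(qPlus m F₀))
    (hs : ptyPlus m (isoInc (qPlus m F₀) s) = 1) :
    A (qPlus m F) (liftJ j (fun x => qPlus_comp j x) (isoInc (qPlus m F₀) s)) ∈
      Cfsg.Inn (Cfsg.POmega F ⇑(qPlus m F)) := by
  have hm1 : 1 ≤ m := by omega
  have h20 : (2 : F₀) ≠ 0 := fun h => h2 (by rw [← map_ofNat j 2, h, map_zero])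
  have hV := exists_ne_qPlus (F := F) (m := m) hm1
  have hV₀ := exists_ne_qPlus (F := F₀) (m := m) hm1
  set t := liftIso j hm1 s with ht
  have e : liftJ j (fun x => qPlus_comp j x) (isoInc (qPlus m F₀) s) = isoInc (qPlus m F) t := rfl
  rw [e]
  refine A_iso_mem_inn hm1 h2 t ?_ ?_
  · have hε : ptyPlus m (isoInc (qPlus m F) t) = 1 := by
      rw [← e, par_comp j (fun x => qPlus_comp j x) Forms.qPlus_nondegenerate (by simp; omega)
        (isPar_plus hm1) (isPar_plus hm1) _ (liftJ_val j _), hs]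
    have h := ((isPar_plus (F := F) hm1).det h2 (isoInc _ t)).mpr hε
    rw [show sim hV (isoInc (qPlus m F) t) = 1 by
      rw [← MonoidHom.mem_ker, sim_ker]; exact ⟨t, rfl⟩, one_pow] at h
    refine Units.ext ?_
    rw [Forms.det_isometryEquiv]
    exact congrArg Units.val h
  · have key : ∀ r : Forms.orthGroup (qPlus m F₀), Forms.spinor (qPlus m F) h2
        (Forms.isometryEquiv _ (liftIso j hm1 ((Forms.isometryEquiv (qPlus m F₀)).symm r))) = 1 := by
      intro r
      have hr : r ∈ Subgroup.closure (Forms.reflectionSet (qPlus m F₀)) := by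
        rw [Forms.closure_reflectionSet_odd h20 _ Forms.qPlus_nondegenerate]
        exact Subgroup.mem_top r
      induction hr using Subgroup.closure_induction with
      | mem r hr =>
        obtain ⟨v, hv, rfl⟩ := hr
        have hl : liftIso j hm1 ((Forms.isometryEquiv (qPlus m F₀)).symm (Forms.reflection _ v)) =
            (Forms.isometryEquiv (qPlus m F)).symm (Forms.reflection _ (⇑j ∘ v)) :=
          Subtype.ext (congrArg (fun g : GO (qPlus m F) => g.1)
            (refl_hom j (fun x => qPlus_comp j x) (liftJ j fun x => qPlus_comp j x)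
              (liftJ_val j fun x => qPlus_comp j x) v))
        rw [hl, MulEquiv.apply_symm_apply]
        refine (Forms.spinor_reflection h2 Forms.qPlus_nondegenerate ?_).1 ?_
        · rw [qPlus_comp]; exact (map_ne_zero j).mpr hv
        · rw [qPlus_comp]; exact hsq _
      | one => simp
      | mul x y _ _ hx hy => simp only [map_mul, hx, hy, one_mul]
      | inv x _ hx => simp only [map_inv, hx, inv_one]
    have h := key (Forms.isometryEquiv _ s)
    rwa [MulEquiv.symm_apply_apply] at h

end Rational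

end Cfsg.Agent.KnownB.Proj.Orth
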