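import Cfsg.Agent.KnownB.Proj.Orth.GraphField
import Cfsg.Agent.S2723

/-! Splitting of the class of an involutory graph-field automorphism of the plus type. -/

set_option autoImplicit false
set_option maxHeartbeats 1000000

namespace Cfsg.Agent.KnownB.Proj.Orth

open Matrix Module
open Cfsg.Agent.Forms (qPlus qMinus)
open Cfsg.Agent.KnownB.AutPSL (splitClassCount_eq_relIndex)

universe u v

theorem isSquare_mul_inv_of_not {K : Type*} [Field K] [Fintype K] {a b : Kˣ} (ha : ¬ IsSquare a)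
    (hb : ¬ IsSquare b) : IsSquare (a * b⁻¹) := by
  have hv : ∀ x : Kˣ, IsSquare (x : K) → IsSquare x := fun x ⟨y, hy⟩ =>
    ⟨Units.mk0 y (fun h => x.ne_zero (by rw [hy, h, mul_zero])), Units.ext hy⟩
  refine hv _ ?_
  rw [Units.val_mul]
  refine (binary_isSquare_mul_not a.ne_zero (fun h => hb (hv b ?_))).mpr fun h => ha (hv a h)
  rw [Units.val_inv_eq_inv_val] at h
  simpa using h.inv

namespace GFData

variable {F : Type u} [Field F] [Fintype F] {n : ℕ} {F₀ : Type v} [Field F₀] [Fintype F₀]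
  {j : F₀ →+* F} {σ : fieldSub (qPlus (n + 1) F)} {ζ : F₀}
  {L : (((Fin n ⊕ Fin n) ⊕ Fin 2) → F) ≃ₗ[F] ((Fin (n + 1) ⊕ Fin (n + 1)) → F)}
  (D : GFData j σ ζ L)
include D

local notation "Ip" => (Fin (n + 1) ⊕ Fin (n + 1))
local notation "Jp" => ((Fin n ⊕ Fin n) ⊕ Fin 2)

omit [Fintype F₀] in
theorem det_one_of_par (h2 : (2 : F) ≠ 0) (hn : 4 ≤ n) (t : Cfsg.isometryGroup F ⇑(qPlus (n + 1) F))
    (ht : ptyPlus (n + 1) (isoInc _ t) = 1) : detGO (isoInc _ t) = 1 := by
  have h := ((isPar_plus (F := F) (Nat.succ_pos n)).det h2 (isoInc _ t)).mpr ht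
  rwa [sim_isoInc, one_pow] at h

/-- Fixed elements lie in the image of the special orthogonal group. -/
theorem fixed_le_pso (h2 : (2 : F) ≠ 0) (hn : 4 ≤ n)
    {ε₀ : GO (qMinus n F₀ 1 ζ) →* Multiplicative (ZMod 2)}
    (hε₀ : IsPar (exists_ne_qMinus D.aniso) (n + 1) ε₀) (g : GO (qMinus n F₀ 1 ζ)) (hg : ε₀ g = 1) :
    A (qPlus (n + 1) F) (gfHom j L D.form g) ∈ Cfsg.psoAut F ⇑(qPlus (n + 1) F) := by
  set k := gfHom j L D.form g with hk
  have hV := exists_ne_qPlus (F := F) (m := n + 1) (Nat.succ_pos n)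
  have hkp : ptyPlus (n + 1) k = 1 := (gfHom_par j L D.form (by omega) D.aniso hε₀ g).trans hg
  obtain ⟨u, hu⟩ : IsSquare (sim hV k : F) := by
    rw [hk, gfHom_sim j L D.form hV (exists_ne_qMinus D.aniso)]
    exact D.isSquare_hom hn h2 _
  have hu0 : u ≠ 0 := fun h => (sim hV k).ne_zero (by rw [hu, h, zero_mul])
  have hmem : k * (sc _ (Units.mk0 u hu0))⁻¹ ∈ (sim hV).ker := by
    rw [MonoidHom.mem_ker, map_mul, map_inv, sim_sc, mul_inv_eq_one]
    exact Units.ext (by rw [Units.val_mul, Units.val_mk0, ← hu])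
  rw [sim_ker] at hmem
  obtain ⟨t, ht⟩ := hmem
  have htd := D.det_one_of_par h2 hn t (by
    rw [ht, map_mul, map_inv, (isPar_plus (Nat.succ_pos n)).scal, inv_one, mul_one, hkp])
  rw [show k = isoInc _ t * sc _ (Units.mk0 u hu0) by rw [ht, inv_mul_cancel_right], map_mul,
    (A_eq_one_iff' Forms.qPlus_nondegenerate (by simp; omega) _).mpr ⟨_, rfl⟩, mul_one, psoAut_eq]
  refine ⟨_, ?_, rfl⟩
  exact ⟨t.2, htd⟩

/-- Fixed elements of square multiplier are inner. -/
theorem fixed_square_inn (h2 : (2 : F) ≠ 0) (hn : 4 ≤ n)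
    (hneg : Forms.negOne (qPlus (n + 1) F) ∈ commutator (Forms.orthGroup (qPlus (n + 1) F)))
    {ε₀ : GO (qMinus n F₀ 1 ζ) →* Multiplicative (ZMod 2)}
    (hε₀ : IsPar (exists_ne_qMinus D.aniso) (n + 1) ε₀) (g : GO (qMinus n F₀ 1 ζ)) (hg : ε₀ g = 1)
    (hsq : IsSquare (sim (exists_ne_qMinus D.aniso) g)) :
    A (qPlus (n + 1) F) (gfHom j L D.form g) ∈ Cfsg.Inn (Cfsg.POmega F ⇑(qPlus (n + 1) F)) := by
  obtain ⟨v, hv⟩ := hsq
  have hmem : g * (sc _ v)⁻¹ ∈ (sim (exists_ne_qMinus (m := n) D.aniso)).ker := by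
    rw [MonoidHom.mem_ker, map_mul, map_inv, sim_sc, hv, mul_inv_cancel]
  rw [sim_ker] at hmem
  obtain ⟨s₀, hs₀⟩ := hmem
  obtain ⟨t, ht, hts⟩ := gfHom_iso_spinor j (by omega) L D.form D.aniso h2 (D.isSquare_hom hn h2) s₀
  have htp : ptyPlus (n + 1) (isoInc _ t) = 1 := by
    rw [← ht, gfHom_par j L D.form (by omega) D.aniso hε₀, hs₀, map_mul, map_inv, hε₀.scal, inv_one,
      mul_one, hg]
  rw [show g = isoInc _ s₀ * sc _ v by rw [hs₀, inv_mul_cancel_right], map_mul (gfHom j L D.form),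
    gfHom_sc, ht, map_mul,
    (A_eq_one_iff' Forms.qPlus_nondegenerate (by simp; omega) _).mpr ⟨_, rfl⟩, mul_one]
  refine (inn_iff_spinor (evenOdd_plus (F := F) h2 (by omega : 4 ≤ n + 1)) hneg t ?_).mpr hts
  refine Units.ext ?_
  rw [Forms.det_isometryEquiv]
  rw [Units.val_one]
  exact congrArg Units.val (D.det_one_of_par h2 hn t htp)

/-- A fixed element of non-square multiplier, and whether it is inner. -/
theorem exists_fixed_nonsquare (h2 : (2 : F) ≠ 0) (hn : 4 ≤ n)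
    (hneg : Forms.negOne (qPlus (n + 1) F) ∈ commutator (Forms.orthGroup (qPlus (n + 1) F)))
    {ε₀ : GO (qMinus n F₀ 1 ζ) →* Multiplicative (ZMod 2)}
    (hε₀ : IsPar (exists_ne_qMinus D.aniso) (n + 1) ε₀) :
    ∃ g : GO (qMinus n F₀ 1 ζ), ε₀ g = 1 ∧ ¬ IsSquare (sim (exists_ne_qMinus D.aniso) g) ∧
      (A (qPlus (n + 1) F) (gfHom j L D.form g) ∈ Cfsg.Inn (Cfsg.POmega F ⇑(qPlus (n + 1) F)) ↔
        (Odd (n + 1) ∧ Fintype.card F₀ % 4 = 1)) := by
  classical
  set s : F ≃+* F := (σ : F ≃+* F) with hs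
  have h20 : (2 : F₀) ≠ 0 := fun h => h2 (by rw [← map_ofNat j 2, h, map_zero])
  obtain ⟨c, hc⟩ := Forms.exists_nonsquare_of_two_ne_zero (F := F₀) h20
  have hc0 : c ≠ 0 := fun h => hc (h ▸ IsSquare.zero)
  have hjc : j c ≠ 0 := (map_ne_zero j).mpr hc0
  obtain ⟨w, hw⟩ := D.nrm_surj c hc0 hn
  have hw0 : w ≠ 0 := fun h => hjc (by rw [← hw, h, zero_mul])
  have hsw0 : s w ≠ 0 := fun h => hjc (by rw [← hw, h, mul_zero])
  obtain ⟨u, hu⟩ := D.isSquare_hom hn h2 c
  have hu0 : u ≠ 0 := fun h => hjc (by rw [hu, h, zero_mul])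
  have hsu : s u = -u := by
    have h1 : s u * s u = u * u := by rw [← map_mul, ← hu]; exact (D.fixed _).mpr ⟨c, rfl⟩
    rcases mul_self_eq_mul_self_iff.mp h1 with h | h
    · obtain ⟨d, hd⟩ := (D.fixed u).mp h
      exact absurd ⟨d, j.injective (by rw [map_mul, hd, hu])⟩ hc
    · exact h
  set l : Fin (n + 1) → Fˣ :=
    fun i => if i = 0 then Units.mk0 (w / u) (div_ne_zero hw0 hu0) else Units.mk0 u hu0 with hl
  set k : GO (qPlus (n + 1) F) := sc _ (Units.mk0 u hu0) * isoInc _ (pairDiag n l) with hk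
  have hdet : detGO (isoInc (qPlus (n + 1) F) (pairDiag n l)) = 1 := by
    refine Units.ext ?_
    show (Matrix.diagonal _).det = (1 : F)
    rw [Matrix.det_diagonal, Fintype.prod_sum_type, ← Finset.prod_mul_distrib]
    exact Finset.prod_eq_one fun i _ => by simp
  have hkp : ptyPlus (n + 1) k = 1 := by
    rw [hk, map_mul, (isPar_plus (Nat.succ_pos n)).scal, one_mul]
    exact ((isPar_plus (F := F) (Nat.succ_pos n)).det h2 _).mp (by rw [sim_isoInc, one_pow, hdet])
  set d : Ip → F := Sum.elim (fun i => if i = 0 then w else j c) fun i => if i = 0 then s w else 1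
    with hd
  have hkv' : ∀ v : Ip → F, (k.1 : Matrix Ip Ip F) *ᵥ v = fun i => d i * v i := by
    intro v
    show (((sc (qPlus (n + 1) F) (Units.mk0 u hu0)).1 * (pairDiag n l).1 : GL Ip F) :
      Matrix Ip Ip F) *ᵥ v = _
    rw [Units.val_mul, ← Matrix.mulVec_mulVec, sc_mulVec]
    show (u : F) • (Matrix.diagonal _ *ᵥ v) = _
    funext i
    rcases i with i | i <;> by_cases hi : i = 0 <;>
      simp [hd, hl, hi, Matrix.mulVec_diagonal]
    · field_simp
    · rw [hu]; ring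
    · subst hi
      field_simp
      linear_combination (v (Sum.inr 0)) * (hu.symm.trans hw.symm)
    · field_simp
  obtain ⟨g, hg⟩ := (gfHom_range j L D.form D.aniso D.fixed D.semi k).mp (by
    refine go_ext fun v => ?_
    obtain ⟨x, rfl⟩ : ∃ x, ⇑s ∘ x = v := ⟨_, comp_symm s v⟩
    show (((rho n F).1 * (mapGO σ k).1 * (rho n F).1 : GL Ip F) : Matrix Ip Ip F) *ᵥ _ = _
    have hd' : d = ((rho n F).1 : Matrix Ip Ip F) *ᵥ (⇑s ∘ d) := by
      rw [rho_apply]
      funext i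
      rcases i with i | i <;> by_cases hi : i = 0 <;>
        simp [hd, hi, D.sq_eq w, (D.fixed (j c)).mpr ⟨c, rfl⟩, hs]
    have hr : ((rho n F).1 : Matrix Ip Ip F) *ᵥ (⇑s ∘ x) =
        ⇑s ∘ (((rho n F).1 : Matrix Ip Ip F) *ᵥ x) := by
      rw [rho_apply, rho_apply]
      funext i
      rcases i with i | i <;> by_cases hi : i = 0 <;> simp [hi]
    rw [Units.val_mul, Units.val_mul, ← Matrix.mulVec_mulVec, ← Matrix.mulVec_mulVec, hr,
      mapGO_val, ← hs, map_mulVec, hkv', hkv', rho_apply, rho_apply, hd']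
    rw [rho_apply]
    funext i
    rcases i with i | i <;> by_cases hi : i = 0 <;>
      simp [hi, hd, hs, D.sq_eq w, (D.fixed (j c)).mpr ⟨c, rfl⟩, D.sq_eq])
  refine ⟨g, ?_, ?_, ?_⟩
  · rw [← gfHom_par j L D.form (by omega) D.aniso hε₀, hg, hkp]
  · rintro ⟨v, hv⟩
    have h := gfHom_sim j L D.form (exists_ne_qPlus (Nat.succ_pos n))
      (exists_ne_qMinus D.aniso) g
    rw [hg, hk, map_mul, sim_sc, sim_isoInc, mul_one, hv] at h
    have h' := congrArg Units.val h
    simp only [Units.val_mul, Units.val_mk0, map_mul, Units.coe_map, MonoidHom.coe_coe] at h'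
    rw [← hu] at h'
    exact hc ⟨v, j.injective (by rw [h', map_mul])⟩
  rw [hg, hk, map_mul, (A_eq_one_iff' Forms.qPlus_nondegenerate (by simp; omega) _).mpr ⟨_, rfl⟩,
    one_mul, inn_iff_spinor (evenOdd_plus (F := F) h2 (by omega : 4 ≤ n + 1)) hneg _ (Units.ext (by
      rw [Forms.det_isometryEquiv, Units.val_one]; exact congrArg Units.val hdet))]
  have hprod : ((∏ i, l i : Fˣ) : F) = w / u * u ^ n := by
    rw [Fin.prod_univ_succ, Units.val_mul, Units.coe_prod]
    simp [hl, Fin.succ_ne_zero]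
  rw [show (evenOdd_plus (F := F) h2 (by omega : 4 ≤ n + 1)).two = h2 from rfl,
    spinor_pairDiag h2, hprod,
    isSquare_norm_iff j D.fixed D.sq_eq h2 (fun e he => D.nrm_surj e he hn) _
      (mul_ne_zero (div_ne_zero hw0 hu0) (pow_ne_zero _ hu0)) ((-1) ^ (n + 1) * c ^ n) (by
        rw [map_mul, map_div₀, map_pow, hsu, map_mul, map_pow, map_pow, map_neg, map_one, hu]
        have e : w / u * u ^ n * (s w / -u * (-u) ^ n) =
            w * s w / (u * -u) * (u * -u) ^ n := by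
          rw [mul_pow]; field_simp
        rw [e, hw, hu, neg_eq_neg_one_mul u, mul_left_comm, mul_pow]
        field_simp
        simp [pow_succ])]
  rcases Nat.even_or_odd n with he | ho
  · obtain ⟨r, rfl⟩ := he
    rw [show (-1 : F₀) ^ (r + r + 1) * c ^ (r + r) = -1 * (c ^ r * c ^ r) by
      rw [pow_succ, pow_add, pow_add, ← mul_pow (-1 : F₀)]; simp]
    have hodd : Odd (r + r + 1) := ⟨r, by omega⟩
    simp only [hodd, true_and]
    have hq : Fintype.card F₀ % 2 = 1 := FiniteField.odd_card_of_char_ne_two (fun h => h20 (by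
      have := CharP.cast_eq_zero (R := F₀) (ringChar F₀); rw [h] at this; simpa using this))
    constructor
    · rintro ⟨y, hy⟩
      have h1 : IsSquare (-1 : F₀) := ⟨y / c ^ r, by field_simp; linear_combination hy⟩
      have := FiniteField.isSquare_neg_one_iff.mp h1
      omega
    · intro h
      exact (FiniteField.isSquare_neg_one_iff.mpr (by omega)).mul (IsSquare.mul_self _)
  · obtain ⟨r, rfl⟩ := ho
    refine iff_of_false (fun ⟨y, hy⟩ => hc ⟨y / c ^ r, ?_⟩) fun h => ?_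
    · rw [show (-1 : F₀) ^ (2 * r + 1 + 1) = 1 from Even.neg_one_pow ⟨r + 1, by omega⟩, one_mul] at hy
      field_simp
      linear_combination hy
    · exact (Nat.not_even_iff_odd.mpr h.1) ⟨r + 1, by omega⟩

/-- In odd characteristic the class splits into four or two classes. -/
theorem split_odd (h2 : (2 : F) ≠ 0) (hn : 4 ≤ n) (hq : Fintype.card F % 4 = 1) :
    Cfsg.splitClassCount ((ptyPlus (n + 1)).ker.map (A (qPlus (n + 1) F)))
      (Cfsg.Inn (Cfsg.POmega F ⇑(qPlus (n + 1) F)))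
      (A (qPlus (n + 1) F) (rho n F) * Fd (qPlus (n + 1) F) σ) =
    if Odd (n + 1) ∧ Fintype.card F₀ % 4 = 1 then 4 else 2 := by
  classical
  have hc : ¬ (Odd (n + 1) ∧ Fintype.card F % 4 = 3) := fun h => by omega
  have hneg := negOne_plus (F := F) h2 (by omega : 4 ≤ n + 1) hc
  have H := evenOdd_plus (F := F) h2 (by omega : 4 ≤ n + 1)
  have hK : (ptyPlus (n + 1)).ker.map (A (qPlus (n + 1) F)) =
      (dSub H.ns (n + 1)).map (A (qPlus (n + 1) F)) := by
    rw [dSub_eq_ker_plus h2 (by omega)]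
  have hr := (S2723.result (F := F) (m := n + 1) (Nat.odd_iff.mpr (by omega)) (by omega)).2 hc
  rw [← Forms.coe_qPlus] at hr
  have hle : Cfsg.Inn (Cfsg.POmega F ⇑(qPlus (n + 1) F)) ≤
      (ptyPlus (n + 1)).ker.map (A (qPlus (n + 1) F)) := by
    rw [hK]; exact H.inn_le_pso.trans H.pso_le
  obtain ⟨ε₀, hε₀, -⟩ := exists_par_minus (F := F₀) (m := n) (by omega) D.aniso
  rw [splitClassCount_eq_relIndex _ _ hle, D.centralizer_range hn hε₀]
  set C := ε₀.ker.map ((A (qPlus (n + 1) F)).comp (gfHom j L D.form)) with hC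
  set K := Cfsg.Inn (Cfsg.POmega F ⇑(qPlus (n + 1) F))
  set P := Cfsg.psoAut F ⇑(qPlus (n + 1) F)
  set I := (ptyPlus (n + 1)).ker.map (A (qPlus (n + 1) F))
  have h4 : K.relIndex I = 4 := by
    rw [hK]
    exact (H.relIndices hr).2
  have hXP : K ⊔ C ≤ P := sup_le H.inn_le_pso (by
    rintro _ ⟨g, hg, rfl⟩
    exact D.fixed_le_pso h2 hn hε₀ g hg)
  obtain ⟨g₁, hg₁, hns, hinn⟩ := D.exists_fixed_nonsquare h2 hn hneg hε₀
  split_ifs with h
  · rw [sup_eq_left.mpr (by
      rintro _ ⟨g, hg, rfl⟩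
      show A _ (gfHom j L D.form g) ∈ K
      by_cases hs : IsSquare (sim (exists_ne_qMinus D.aniso) g)
      · exact D.fixed_square_inn h2 hn hneg hε₀ g hg hs
      · rw [← mul_inv_cancel_right g g₁⁻¹, inv_inv, map_mul, map_mul]
        refine mul_mem (D.fixed_square_inn h2 hn hneg hε₀ (g * g₁⁻¹) ?_ ?_) (hinn.mpr h)
        · rw [map_mul, map_inv, show ε₀ g = 1 from hg, hg₁, inv_one, one_mul]
        · rw [map_mul, map_inv]
          exact isSquare_mul_inv_of_not hs hns)]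
    exact h4
  · have hne : K.relIndex (K ⊔ C) ≠ 1 := fun e => h (hinn.mp (Subgroup.relIndex_eq_one.mp e
      (Subgroup.mem_sup_right ⟨g₁, hg₁, rfl⟩)))
    have h1 := Subgroup.relIndex_mul_relIndex K (K ⊔ C) P le_sup_left hXP
    rw [hr] at h1
    have hp : (K ⊔ C).relIndex P = 1 := by
      rcases (Nat.prime_two.eq_one_or_self_of_dvd _ ⟨_, h1.symm⟩) with e | e
      · exact absurd e hne
      · rw [e] at h1; omega
    have hPI : P ≤ I := by rw [hK]; exact H.pso_le
    rw [← Subgroup.relIndex_mul_relIndex (K ⊔ C) P I hXP hPI, hp, one_mul]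
    have h3 := Subgroup.relIndex_mul_relIndex K P I H.inn_le_pso hPI
    rw [hr, h4] at h3
    omega

end GFData

end Cfsg.Agent.KnownB.Proj.Orth
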