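import Cfsg.Agent.KnownB.Proj.Orth.GraphCount

/-! The involutory graph-field automorphisms of the plus type. -/

set_option autoImplicit false
set_option maxHeartbeats 1000000

namespace Cfsg.Agent.KnownB.Proj.Orth

open Matrix Module
open Cfsg.Agent.Forms (qPlus qMinus)
open Cfsg.Agent.KnownB.AutPSL (splitClassCount_eq_relIndex)

universe u v

variable {F : Type u} [Field F] [Fintype F] {n : ℕ}

local notation "Ip" => (Fin (n + 1) ⊕ Fin (n + 1))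

theorem exists_gfData {p f : ℕ} [Fact p.Prime] (hF : Fintype.card F = p ^ f)
    {σ : fieldSub (qPlus (n + 1) F)} (hσ : orderOf (σ : F ≃+* F) = 2) (hf : 2 ∣ f)
    (F₀ : Type v) [Field F₀] [Fintype F₀] (hF₀ : Fintype.card F₀ = p ^ (f / 2)) :
    ∃ (j : F₀ →+* F) (ζ : F₀)
      (L : (((Fin n ⊕ Fin n) ⊕ Fin 2) → F) ≃ₗ[F] ((Fin (n + 1) ⊕ Fin (n + 1)) → F)),
      GFData j σ ζ L := by
  obtain ⟨j, hj⟩ := AutPSL.exists_fixedField hF hσ two_pos hf F₀ hF₀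
  obtain ⟨ζ, hζ⟩ := exists_aniso_one F₀
  have hnot : ¬ Aniso (j 1) (j ζ) := fun h =>
    absurd (odd_of_aniso hF hf Nat.prime_two hF₀ j h) (by decide)
  rw [map_one] at hnot
  simp only [Aniso, not_forall] at hnot
  obtain ⟨z₁, z₂, hz, hne⟩ := hnot
  have hz2 : z₂ ≠ 0 := fun h => hne ⟨by simpa [h] using hz, h⟩
  have ht : (z₁ / z₂) ^ 2 + z₁ / z₂ + j ζ = 0 := by
    field_simp
    linear_combination hz
  set t := z₁ / z₂
  have hfix : (σ : F ≃+* F) t ≠ t := fun h => by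
    obtain ⟨d, hd⟩ := (hj t).mp h
    have h1 : d ^ 2 + 1 * d * 1 + ζ * 1 ^ 2 = 0 := j.injective (by
      simp only [map_add, map_mul, map_pow, map_one, map_zero, hd]
      linear_combination ht)
    exact one_ne_zero (hζ d 1 h1).2
  have hσt : (σ : F ≃+* F) t = -1 - t := by
    have h1 := congrArg (σ : F ≃+* F) ht
    rw [map_add, map_add, map_pow, (hj (j ζ)).mpr ⟨ζ, rfl⟩, map_zero] at h1
    have h2 : ((σ : F ≃+* F) t - t) * ((σ : F ≃+* F) t - (-1 - t)) = 0 := by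
      linear_combination h1 - ht
    exact sub_eq_zero.mp ((mul_eq_zero.mp h2).resolve_left (sub_ne_zero.mpr hfix))
  obtain ⟨L, hL, hLσ⟩ := exists_split_iso (n := n) ht (hσt ▸ hfix)
  exact ⟨j, ζ, L, hσ, hj, hζ, hL, hLσ _ ((hj _).mpr ⟨ζ, rfl⟩) hσt⟩

theorem inn_le_ker_plus :
    Cfsg.Inn (Cfsg.POmega F ⇑(qPlus (n + 1) F)) ≤
      (ptyPlus (n + 1)).ker.map (A (qPlus (n + 1) F)) := by
  rw [Inn_eq_map]
  refine Subgroup.map_mono ?_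
  rintro _ ⟨s, hs, rfl⟩
  have hhom : ((ptyPlus (n + 1)).comp (isoInc (qPlus (n + 1) F))) s = 1 :=
    Abelianization.commutator_subset_ker _ hs
  exact hhom

/-- The statement, on any presentation of the forms. -/
theorem graph_field_model (hn : 4 ≤ n) {p f : ℕ} [Fact p.Prime] (hF : Fintype.card F = p ^ f)
    (hf : 1 ≤ f) (Qf : (Ip → F) → F) (hQf : ⇑(qPlus (n + 1) F) = Qf)
    (x : MulAut (Cfsg.POmega F Qf))
    (hx : ∃ (α γ φ : MulAut (Cfsg.POmega F Qf)) (σ : F ≃+* F) (v : Ip → F) (g : GL Ip F),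
      σ ≠ RingEquiv.refl F ∧ Qf v ≠ 0 ∧ (∀ i, σ (v i) = v i) ∧
      (g : Matrix Ip Ip F) = Cfsg.reflectionMatrix Qf v ∧
      Cfsg.IsInducedBySemilinearPOmega Qf g (RingEquiv.refl F) γ ∧
      Cfsg.IsFieldAutPOmegaOf Qf σ φ ∧ α * x * α⁻¹ = γ * φ)
    (hx2 : orderOf x = 2) (F₀ : Type v) [Field F₀] [Fintype F₀]
    (hF₀ : Fintype.card F₀ = p ^ (f / 2))
    (Qf₀ : F₀ → F₀ → ((Fin n ⊕ Fin n) ⊕ Fin 2 → F₀) → F₀)
    (hQf₀ : (fun a₀ b₀ => ⇑(qMinus n F₀ a₀ b₀)) = Qf₀) :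
    let I := Cfsg.autSubgroupOf fun β : MulAut (Cfsg.POmega F Qf) =>
      ∃ g : GL Ip F, g ∈ Cfsg.Geo.quadSimilarityGroup (F := F) Qf ∧
        Cfsg.PreservesSingularClasses Qf (g : Matrix _ _ F) ∧
        Cfsg.IsInducedBySemilinearPOmega Qf g (RingEquiv.refl F) β
    Even f ∧
      (∀ y : MulAut (Cfsg.POmega F Qf),
        (∃ (α γ φ : MulAut (Cfsg.POmega F Qf)) (σ : F ≃+* F) (v : Ip → F) (g : GL Ip F),
          σ ≠ RingEquiv.refl F ∧ Qf v ≠ 0 ∧ (∀ i, σ (v i) = v i) ∧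
          (g : Matrix Ip Ip F) = Cfsg.reflectionMatrix Qf v ∧
          Cfsg.IsInducedBySemilinearPOmega Qf g (RingEquiv.refl F) γ ∧
          Cfsg.IsFieldAutPOmegaOf Qf σ φ ∧ α * y * α⁻¹ = γ * φ) →
        orderOf y = 2 → Cfsg.IsConjUnder I x y) ∧
      (∃ a₀ b₀ : F₀, Aniso a₀ b₀ ∧ Nonempty (↥(I ⊓ Subgroup.centralizer {x}) ≃*
        ↥(Cfsg.autSubgroupOf fun β : MulAut (Cfsg.POmega F₀ (Qf₀ a₀ b₀)) =>
          ∃ g : GL ((Fin n ⊕ Fin n) ⊕ Fin 2) F₀,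
            g ∈ Cfsg.Geo.quadSimilarityGroup (F := F₀) (Qf₀ a₀ b₀) ∧
            Cfsg.PreservesSingularClassesMinus n a₀ b₀ (g : Matrix _ _ F₀) ∧
            Cfsg.IsInducedBySemilinearPOmega (Qf₀ a₀ b₀) g (RingEquiv.refl F₀) β))) ∧
      (p = 2 → Cfsg.splitClassCount I (Cfsg.Inn (Cfsg.POmega F Qf)) x = 1) ∧
      ((p ≠ 2 ∧ Odd (n + 1) ∧ p ^ (f / 2) % 4 = 1) →
        Cfsg.splitClassCount I (Cfsg.Inn (Cfsg.POmega F Qf)) x = 4) ∧
      ((p ≠ 2 ∧ ¬ (Odd (n + 1) ∧ p ^ (f / 2) % 4 = 1)) →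
        Cfsg.splitClassCount I (Cfsg.Inn (Cfsg.POmega F Qf)) x = 2) := by
  intro I
  subst hQf hQf₀
  have hI : I = (ptyPlus (n + 1)).ker.map (A (qPlus (n + 1) F)) := inndiag_plus_eq (n + 1)
  rw [hI]
  haveI hN : ((ptyPlus (n + 1)).ker.map (A (qPlus (n + 1) F))).Normal := by
    rw [← range_comp_ker]; exact range_plus_normal hn
  obtain ⟨α, γ, φ, σ, v, g, hσ, hv, hσv, hg, hγ, hφ, h⟩ := id hx
  obtain ⟨-, σ₀, rfl, ho, -⟩ := graph_class hn Nat.prime_two hx2 hσ hσv hg hγ hφ hv h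
  have hf2 : 2 ∣ f := ho ▸ ringAut_order_dvd hF hf (σ₀ : F ≃+* F)
  obtain ⟨j, ζ, L, D⟩ := exists_gfData hF ho hf2 F₀ hF₀
  obtain ⟨h₁, hh₁, e₁⟩ := graph_std hn hF hf ho x hx hx2
  obtain ⟨ε₀, hε₀, hεp⟩ := exists_par_minus (F := F₀) (m := n) (by omega) D.aniso
  have hsplit := splitClassCount_conj ((ptyPlus (n + 1)).ker.map (A (qPlus (n + 1) F)))
    (Cfsg.Inn (Cfsg.POmega F ⇑(qPlus (n + 1) F))) h₁ x
  rw [e₁] at hsplit
  have hq4 : p ≠ 2 → Fintype.card F % 4 = 1 := fun hp => by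
    obtain ⟨k, hk⟩ := ((Fact.out : p.Prime).odd_of_ne_two hp).pow (n := f / 2)
    rw [hF, ← Nat.div_mul_cancel hf2, pow_mul, hk, sq]
    ring_nf
    omega
  have h2 : p ≠ 2 → (2 : F) ≠ 0 := fun hp => two_ne_zero_card (by
    rw [hF]; exact ((Fact.out : p.Prime).odd_of_ne_two hp).pow)
  refine ⟨even_iff_two_dvd.mpr hf2, fun y hy hy2 => ?_, ⟨1, ζ, D.aniso, ?_⟩, fun hp => ?_,
    fun hc => ?_, fun hc => ?_⟩
  · obtain ⟨h₂, hh₂, e₂⟩ := graph_std hn hF hf ho y hy hy2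
    refine ⟨h₂⁻¹ * h₁, mul_mem (inv_mem hh₂) hh₁, ?_⟩
    calc y = h₂⁻¹ * (h₂ * y * h₂⁻¹) * h₂ := by group
      _ = h₂⁻¹ * (h₁ * x * h₁⁻¹) * h₂ := by rw [e₁, e₂]
      _ = _ := by group
  · obtain ⟨e⟩ := centralizer_conj ((ptyPlus (n + 1)).ker.map (A (qPlus (n + 1) F))) h₁ x
    rw [e₁] at e
    obtain ⟨e'⟩ := D.centralizer_equiv hn hε₀
    show Nonempty (_ ≃* ↥(Cfsg.autSubgroupOf
      fun β : MulAut (Cfsg.POmega F₀ ⇑(qMinus n F₀ 1 ζ)) => _))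
    rw [inndiag_minus_ker hεp]
    exact ⟨e.trans e'⟩
  · rw [← hsplit, splitClassCount_eq_relIndex _ _ inn_le_ker_plus, Subgroup.relIndex_eq_one]
    refine le_sup_of_le_left (inn_le_two hn ?_)
    haveI : CharP F 2 := hp ▸ charP_of_card_eq_prime_pow hF
    exact CharTwo.two_eq_zero
  · rw [← hsplit, D.split_odd (h2 hc.1) hn (hq4 hc.1), hF₀, if_pos hc.2]
  · rw [← hsplit, D.split_odd (h2 hc.1) hn (hq4 hc.1), hF₀, if_neg hc.2]

end Cfsg.Agent.KnownB.Proj.Orth
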