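import Cfsg.Agent.KnownB.Proj.Orth.OddApps
import Cfsg.Prelude.Def_Classical
import Cfsg.Prelude.Def_KGroupFacts

/-! `Out Ω_{2m+1}(q)`. -/

set_option autoImplicit false
set_option maxHeartbeats 1000000

namespace Cfsg.Agent.KnownB.Proj.Orth

open Matrix Module
open Cfsg.Agent.Forms (qOdd)

universe u

variable {m : ℕ} {F : Type u} [Field F] [Fintype F]

theorem decomp_bijective_odd (hm : 3 ≤ m) (h2 : (2 : F) ≠ 0) :
    Function.Bijective
      fun x : SO m F × fieldSub (qOdd m F) => Aso m F x.1 * Fd (qOdd m F) x.2 := by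
  classical
  have hG := good_qOdd (F := F) m hm h2
  refine ⟨fun ⟨g, σ⟩ ⟨g', σ'⟩ e => ?_, fun β => ?_⟩
  · simp only at e
    have e1 : Aso m F (g'⁻¹ * g) * Fd (qOdd m F) (σ * σ'⁻¹) = 1 := by
      rw [map_mul, map_mul, map_inv, map_inv, mul_assoc, ← mul_assoc (Aso m F g), e]
      group
    set h := g'⁻¹ * g
    set τ := σ * σ'⁻¹ with hτ
    let i : Unit ⊕ (Fin m ⊕ Fin m) := Sum.inr (Sum.inl ⟨0, by omega⟩)
    let j : Unit ⊕ (Fin m ⊕ Fin m) := Sum.inr (Sum.inl ⟨1, by omega⟩)
    have hij : i ≠ j := by simp [i, j]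
    have key : ∀ a b : F, (a ≠ 0 ∨ b ≠ 0) → ∃ k : F, k ≠ 0 ∧
        (h.1 : Matrix _ _ F) *ᵥ (Pi.single i ((τ : F ≃+* F) a) + Pi.single j ((τ : F ≃+* F) b)) =
          k • (Pi.single i a + Pi.single j b) := by
      intro a b hab
      obtain ⟨k, hk0, hk⟩ := fixes_of_trivial hG (g := soInc m F h) (σ := τ) e1
        (v := Pi.single i a + Pi.single j b) (fun h0 => hab.elim
          (fun ha => ha (by simpa [hij] using congrFun h0 i))
          (fun hb => hb (by simpa [hij.symm] using congrFun h0 j)))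
        (hyperbolic_qOdd (by omega) a b)
      refine ⟨k, hk0, ?_⟩
      rw [← hk]
      show _ = (h.1 : Matrix (Unit ⊕ (Fin m ⊕ Fin m)) (Unit ⊕ (Fin m ⊕ Fin m)) F) *ᵥ _
      congr 1
      funext l
      by_cases hli : l = i <;> by_cases hlj : l = j <;> simp [hli, hlj, hij, hij.symm]
    obtain ⟨ki, hki0, hki⟩ := key 1 0 (Or.inl one_ne_zero)
    obtain ⟨kj, -, hkj⟩ := key 0 1 (Or.inr one_ne_zero)
    simp only [map_one, map_zero, Pi.single_zero, add_zero, zero_add] at hki hkj
    have hlin : ∀ a b : F,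
        (h.1 : Matrix _ _ F) *ᵥ (Pi.single i a + Pi.single j b) =
          a • ki • (Pi.single i 1 : _ → F) + b • kj • (Pi.single j 1 : _ → F) := by
      intro a b
      rw [← hki, ← hkj, ← Matrix.mulVec_smul, ← Matrix.mulVec_smul, ← Matrix.mulVec_add]
      congr 1
      funext l
      by_cases hli : l = i <;> by_cases hlj : l = j <;> simp [hli, hlj, hij, hij.symm]
    have hτ1 : τ = 1 := by
      refine Subtype.ext (RingEquiv.ext fun c => ?_)
      obtain ⟨k1, -, h1⟩ := key 1 1 (Or.inl one_ne_zero)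
      obtain ⟨k, -, hk⟩ := key 1 c (Or.inl one_ne_zero)
      rw [hlin, map_one] at h1 hk
      have a1 := congrFun h1 i
      have a2 := congrFun h1 j
      have a3 := congrFun hk i
      have a4 := congrFun hk j
      simp [hij, hij.symm] at a1 a2 a3 a4
      show (τ : F ≃+* F) c = c
      subst a1 a2 a3
      exact mul_right_cancel₀ hki0 (by rw [a4, mul_comm])
    have hσ : σ = σ' := mul_inv_eq_one.mp (hτ ▸ hτ1)
    rw [hσ] at e
    exact Prod.ext (Aso_injective hm h2 (mul_right_cancel e)) hσ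
  · obtain ⟨g, σ, rfl⟩ := exists_decomp hG fieldSub_qOdd β
    obtain ⟨s, hs⟩ : A (qOdd m F) g ∈ (Aso m F).range := range_A_eq h2 ▸ ⟨g, rfl⟩
    exact ⟨(s, σ), by simp only [hs]⟩

/-- `Out Ω_{2m+1}(q)` is the product of the diagonal and the field automorphisms. -/
theorem exists_out_odd (hm : 3 ≤ m) (h2 : (2 : F) ≠ 0) :
    ∃ D : Subgroup (Cfsg.Out (Cfsg.POmega F ⇑(qOdd m F))), Nat.card D = 2 ∧
      Nonempty (D × fieldSub (qOdd m F) ≃* Cfsg.Out (Cfsg.POmega F ⇑(qOdd m F))) := by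
  classical
  haveI : (Aso m F).range.Normal := by
    rw [← range_A_eq h2]; exact range_A_normal (good_qOdd m hm h2) fieldSub_qOdd
  let q := QuotientGroup.mk' (Cfsg.Inn (Cfsg.POmega F ⇑(qOdd m F)))
  let d := q.comp (Aso m F)
  have hbij := decomp_bijective_odd (F := F) hm h2
  have hker : d.ker = (spin (m := m) h2).ker := by
    rw [← MonoidHom.comap_ker, QuotientGroup.ker_mk', Inn_eq hm h2,
      Subgroup.comap_map_eq_self_of_injective (Aso_injective hm h2)]
  have hcard : Nat.card d.range = 2 := by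
    rw [← Subgroup.index_ker, hker, index_spin_ker hm h2]
  haveI : d.range.Normal := by
    rw [MonoidHom.range_comp]
    exact Subgroup.Normal.map inferInstance q (QuotientGroup.mk'_surjective _)
  have hcentral : ∀ (y : d.range) (x : fieldSub (qOdd m F)),
      Commute (d.range.subtype y) ((q.comp (Fd (qOdd m F))) x) := by
    intro y x
    by_cases hy : y = 1
    · subst hy; simp
    · set z := (q.comp (Fd (qOdd m F))) x
      have h1 : z * y * z⁻¹ ∈ d.range := Subgroup.Normal.conj_mem inferInstance _ y.2 z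
      obtain ⟨a, b, hab, huniv⟩ := Nat.card_eq_two_iff.mp hcard
      have hone : (1 : d.range) = a ∨ (1 : d.range) = b := by
        simpa using huniv.symm.subset (Set.mem_univ (1 : d.range))
      have hy' : y = a ∨ y = b := by simpa using huniv.symm.subset (Set.mem_univ y)
      have hw' : (⟨_, h1⟩ : d.range) = a ∨ (⟨_, h1⟩ : d.range) = b := by
        simpa using huniv.symm.subset (Set.mem_univ (⟨_, h1⟩ : d.range))
      have hw1 : (⟨_, h1⟩ : d.range) ≠ 1 := fun e => hy (Subtype.ext (by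
        have e' : z * (y : Cfsg.Out _) * z⁻¹ = 1 := congrArg Subtype.val e
        rw [mul_inv_eq_one, mul_eq_left] at e'
        exact e'))
      have hwy : (⟨_, h1⟩ : d.range) = y := by
        rcases hone with h | h <;> rcases hy' with h' | h' <;> rcases hw' with h'' | h'' <;>
          simp_all
      have h2' : z * y * z⁻¹ = y := congrArg Subtype.val hwy
      exact (mul_inv_eq_iff_eq_mul.mp h2').symm
  let Ψ : d.range × fieldSub (qOdd m F) →* Cfsg.Out (Cfsg.POmega F ⇑(qOdd m F)) :=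
    d.range.subtype.noncommCoprod (q.comp (Fd (qOdd m F))) hcentral
  refine ⟨d.range, hcard, ⟨MulEquiv.ofBijective Ψ ⟨?_, ?_⟩⟩⟩
  · rw [injective_iff_map_eq_one]
    rintro ⟨⟨_, g, rfl⟩, σ⟩ h
    have h1 : Aso m F g * Fd (qOdd m F) σ ∈ Cfsg.Inn (Cfsg.POmega F ⇑(qOdd m F)) :=
      (QuotientGroup.eq_one_iff _).mp h
    rw [Inn_eq hm h2] at h1
    obtain ⟨k, hk, he⟩ := h1
    have h3 := hbij.1 (a₁ := (k, 1)) (a₂ := (g, σ)) (by simpa using he)
    simp only [Prod.mk.injEq] at h3
    obtain ⟨rfl, rfl⟩ := h3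
    refine Prod.ext (Subtype.ext ?_) rfl
    show d k = 1
    rw [← MonoidHom.mem_ker, hker]
    exact hk
  · intro y
    obtain ⟨β, rfl⟩ := QuotientGroup.mk'_surjective _ y
    obtain ⟨⟨g, σ⟩, rfl⟩ := hbij.2 β
    exact ⟨(⟨d g, g, rfl⟩, σ), (map_mul q _ _).symm⟩

end Cfsg.Agent.KnownB.Proj.Orth
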