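import Cfsg.Agent.KnownB.Proj.Orth.PlusTwist
import Cfsg.Agent.KnownB.Proj.Orth.DiagResults
import Cfsg.Agent.KnownB.Proj.Orth.MinusField
import Cfsg.Agent.KnownB.Proj.EquivTransport

/-! Centralisers and splitting of field classes of the plus type. -/

set_option autoImplicit false
set_option maxHeartbeats 1000000

namespace Cfsg.Agent.KnownB.Proj.Orth

open Matrix Module
open Cfsg.Agent.Forms (qPlus)
open Cfsg.Agent.KnownB.AutPSL (fixSub mem_fixSub splitClassCount_eq_relIndex)

universe u v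

variable {F : Type u} [Field F] {m : ℕ}

/-- `x ↦ x a, y ↦ y b` on every plane, as a linear map. -/
def diagLin (m : ℕ) (a b : Fin m → F) : (Fin m ⊕ Fin m → F) →ₗ[F] (Fin m ⊕ Fin m → F) where
  toFun v := Sum.elim (fun i => a i * v (Sum.inl i)) (fun i => b i * v (Sum.inr i))
  map_add' x y := by funext j; rcases j with i | i <;> simp [mul_add]
  map_smul' k x := by funext j; rcases j with i | i <;> simp <;> ring

theorem diagLin_injective (a b : Fin m → Fˣ) :
    Function.Injective (diagLin m (fun i => (a i : F)) fun i => (b i : F)) := by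
  rw [injective_iff_map_eq_zero]
  intro v hv
  funext j
  rcases j with i | i
  · simpa [diagLin] using congrFun hv (Sum.inl i)
  · simpa [diagLin] using congrFun hv (Sum.inr i)

/-- The diagonal similitudes. -/
noncomputable def diagGO (m : ℕ) (a : Fin m → Fˣ) (c : Fˣ) : GO (qPlus m F) :=
  ⟨(Forms.glEquiv _ F).symm (LinearEquiv.ofInjectiveEndo _
    (diagLin_injective (m := m) (fun i => a i * c) fun i => (a i)⁻¹)), c, fun v => by
    rw [Forms.glEquiv_symm_mulVec]
    show qPlus m F (diagLin m _ _ v) = _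
    rw [Forms.coe_qPlus]
    simp only [Cfsg.quadFormPlus, Finset.mul_sum]
    refine Finset.sum_congr rfl fun i _ => ?_
    simp [diagLin]
    field_simp [(a i).ne_zero]⟩

theorem diagGO_apply (a : Fin m → Fˣ) (c : Fˣ) (v : Fin m ⊕ Fin m → F) :
    ((diagGO m a c).1 : Matrix _ _ F) *ᵥ v =
      Sum.elim (fun i => (a i : F) * c * v (Sum.inl i)) (fun i => ((a i)⁻¹ : Fˣ) * v (Sum.inr i)) :=
  Forms.glEquiv_symm_mulVec _ v

theorem diagGO_mul (a b : Fin m → Fˣ) (c d : Fˣ) :
    diagGO m (a * b) (c * d) = diagGO m a c * diagGO m b d := by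
  refine go_ext fun v => ?_
  show _ = ((diagGO m a c).1.1 * (diagGO m b d).1.1) *ᵥ v
  rw [← Matrix.mulVec_mulVec, diagGO_apply, diagGO_apply, diagGO_apply]
  funext j
  rcases j with i | i <;> simp <;> ring

/-- `(a, c) ↦` the diagonal similitude. -/
noncomputable def diagHomGO (m : ℕ) (F : Type u) [Field F] :
    (Fin m → Fˣ) × Fˣ →* GO (qPlus m F) :=
  MonoidHom.mk' (fun p => diagGO m p.1 p.2) fun p q => diagGO_mul p.1 q.1 p.2 q.2

theorem sim_diagGO (hV : ∃ v, qPlus m F v ≠ 0) (a : Fin m → Fˣ) (c : Fˣ) :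
    sim hV (diagGO m a c) = c :=
  sim_eq_of hV (diagGO m a c).2.choose_spec |>.symm.trans (sim_eq_of hV fun v => by
    rw [diagGO_apply, Forms.coe_qPlus]
    simp only [Cfsg.quadFormPlus, Finset.mul_sum]
    refine Finset.sum_congr rfl fun i _ => ?_
    simp
    field_simp [(a i).ne_zero])

variable [Fintype F]

theorem ptyPlus_diagGO (hm : 1 ≤ m) (a : Fin m → Fˣ) (c : Fˣ) : ptyPlus m (diagGO m a c) = 1 := by
  refine pty_of_img _ _ fun x hx => ?_
  rw [diagGO_apply]
  rw [mem_xSpace] at hx ⊢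
  intro i
  simp [hx i]

/-- `e_i + t f_i`. -/
def planeAt (i₀ : Fin m) (t : F) : Fin m ⊕ Fin m → F :=
  Sum.elim (Pi.single i₀ 1) (Pi.single i₀ t)

omit [Fintype F] in
theorem Q_planeAt (i₀ : Fin m) (t : F) : qPlus m F (planeAt i₀ t) = t := by
  rw [Forms.coe_qPlus]
  simp [Cfsg.quadFormPlus, planeAt, Pi.single_apply]

theorem reflGO_planeAt (i₀ : Fin m) (t : F) (v : Fin m ⊕ Fin m → F) :
    ((reflGO (qPlus m F) (planeAt i₀ t)).1 : Matrix _ _ F) *ᵥ v =
      v - (t⁻¹ * (t * v (Sum.inl i₀) + v (Sum.inr i₀))) • planeAt i₀ t := by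
  refine (reflection_mul _ v).trans ?_
  rw [Q_planeAt, Forms.polar_qPlus]
  congr 3
  simp [planeAt, Pi.single_apply, Finset.sum_add_distrib]
  ring

theorem diag_plane (i₀ : Fin m) (u : Fˣ) :
    diagGO m (Pi.mulSingle i₀ u⁻¹) 1 =
      reflGO (qPlus m F) (planeAt i₀ (u : F)) * reflGO (qPlus m F) (planeAt i₀ 1) := by
  refine go_ext fun v => ?_
  show _ = ((reflGO _ _).1.1 * (reflGO _ _).1.1) *ᵥ v
  rw [← Matrix.mulVec_mulVec, reflGO_planeAt, reflGO_planeAt, diagGO_apply]
  have hu := u.ne_zero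
  funext j
  rcases j with i | i <;>
  · by_cases hi : i = i₀
    · subst hi
      simp [planeAt]
      field_simp
      ring
    · simp [planeAt, hi]

end Cfsg.Agent.KnownB.Proj.Orth
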