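import Cfsg.Agent.KnownB.Proj.Orth.PlusTwist
import Cfsg.Agent.KnownB.Proj.Orth.DiagResults
import Cfsg.Agent.KnownB.Proj.Orth.PlusApps
import Cfsg.Agent.S0293
import Cfsg.Prelude.Def_KGroupFacts

/-! `|Aut|` and the outer automorphisms of the plus type, dimension at least ten. -/

set_option autoImplicit false
set_option maxHeartbeats 1000000

namespace Cfsg.Agent.KnownB.Proj.Orth

open Matrix Module
open Cfsg.Agent.Forms (qPlus)

universe u

variable {F : Type u} [Field F] [Fintype F] {m : ℕ}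

theorem mult_surjective_plus (hm : 1 ≤ m) (hG : Good (qPlus m F)) :
    Function.Surjective (mult hG) := fun c =>
  ⟨swapGO m false c, mult_eq_of hG fun v => by rw [swapGO_apply]; exact swapLin_Q false _ v⟩

theorem gcd_four_plus {p f : ℕ} [Fact p.Prime] (hf : 1 ≤ f) (hm : 1 ≤ m) :
    Nat.gcd 4 ((p ^ f) ^ m - 1) =
      if p = 2 then 1 else (if Even (m * (p ^ f - 1) / 2) then 4 else 2) := by
  split_ifs with hp he
  · subst hp
    have h : Odd ((2 ^ f) ^ m - 1) := Nat.Even.sub_odd (Nat.one_le_pow _ _ (Nat.two_pow_pos f))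
      ((Nat.even_pow.mpr ⟨even_two, by omega⟩).pow_of_ne_zero (by omega)) odd_one
    have : Nat.Coprime (2 ^ 2) ((2 ^ f) ^ m - 1) :=
      Nat.Coprime.pow_left 2 (Nat.coprime_two_left.mpr h)
    simpa using this
  all_goals
    have hodd : (p ^ f) % 2 = 1 := Nat.odd_iff.mp
      ((Nat.Prime.eq_two_or_odd' Fact.out).resolve_left hp).pow
    have h4 := Forms.pow_mod_four (m := m) hodd
    have hpos : 1 ≤ (p ^ f) ^ m := Nat.one_le_pow _ _ (Nat.pow_pos (Fact.out : p.Prime).pos)
    obtain ⟨t, ht⟩ : ∃ t, p ^ f = 2 * t + 1 := ⟨p ^ f / 2, by omega⟩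
    rw [show m * (p ^ f - 1) / 2 = m * t by
      rw [ht, Nat.add_sub_cancel, show m * (2 * t) = 2 * (m * t) by ring,
        Nat.mul_div_cancel_left _ two_pos], Nat.even_mul] at he
  · have hmod : ((p ^ f) ^ m - 1) % 4 = 0 := by
      rw [if_neg (fun h => ?_)] at h4
      · omega
      · rcases he with h' | h'
        · first
            | exact Nat.not_even_iff_odd.mpr h.2 h'
            | exact Nat.not_even_iff_odd.mpr h.1 h'
        · obtain ⟨k, rfl⟩ := h'
          have := h.1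
          have := h.2
          omega
    exact Nat.gcd_eq_left (Nat.dvd_of_mod_eq_zero hmod)
  · push Not at he
    have hmod : ((p ^ f) ^ m - 1) % 4 = 2 := by
      rw [if_pos] at h4
      · omega
      · obtain ⟨k, rfl⟩ := Nat.not_even_iff_odd.mp he.2
        first
          | exact ⟨by omega, Nat.not_even_iff_odd.mp he.1⟩
          | exact ⟨Nat.not_even_iff_odd.mp he.1, by omega⟩
    rw [Nat.gcd_rec, hmod]
    rfl

theorem card_aut_plus (hm : 5 ≤ m) {p f : ℕ} [Fact p.Prime] (hF : Fintype.card F = p ^ f)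
    (hf : 1 ≤ f) :
    Nat.card (MulAut (Cfsg.POmega F (Cfsg.quadFormPlus m F))) =
      2 * Nat.gcd 4 ((p ^ f) ^ m - 1) * f * Nat.card (Cfsg.POmega F (Cfsg.quadFormPlus m F)) := by
  have hG := good_qPlus (F := F) m hm
  have h := card_aut hG exists_ssim_plus (mult_surjective_plus (by omega) hG)
    (by rw [Nat.card_eq_fintype_card, hF]) hf
  have hg := S0293.result hF m (by omega)
  rw [Forms.coe_qPlus] at h
  rw [h, Forms.card_isometryGroup_plus m hF (by omega), mul_assoc 2 ((p ^ f) ^ (m * (m - 1))),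
    mul_assoc 2 ((p ^ f) ^ (m * (m - 1)) * ((p ^ f) ^ m - 1)), ← hg]
  ring

theorem card_inn_plus (hm : 4 ≤ m) :
    Nat.card (Cfsg.Inn (Cfsg.POmega F ⇑(qPlus m F))) = Nat.card (Cfsg.POmega F ⇑(qPlus m F)) := by
  have hQ := Forms.qPlus_nondegenerate (m := m) (F := F)
  refine (Nat.card_congr (MonoidHom.ofInjective
    (f := (MulAut.conj : Cfsg.POmega F ⇑(qPlus m F) →* _)) ?_).toEquiv).symm
  rw [← MonoidHom.ker_eq_bot_iff, Subgroup.eq_bot_iff_forall]
  intro g hg
  have hs := Forms.matrix_pomega_simple (qPlus m F) hQ (by simp; omega)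
  have hp : commutator (Cfsg.POmega F ⇑(qPlus m F)) = ⊤ := by
    have h := Subgroup.map_commutator (⊤ : Subgroup ↥(Cfsg.Omega F ⇑(qPlus m F))) ⊤
      (QuotientGroup.mk' (Subgroup.center ↥(Cfsg.Omega F ⇑(qPlus m F))))
    rw [← commutator_def, omega_perfect_matrix hQ (by simp; omega),
      Subgroup.map_top_of_surjective _ (QuotientGroup.mk'_surjective _), ← commutator_def] at h
    exact h.symm
  have hc : g ∈ Subgroup.center _ := Subgroup.mem_center_iff.mpr fun y => by
    have h := congrArg (fun φ : MulAut (Cfsg.POmega F ⇑(qPlus m F)) => φ y) hg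
    simp only [MulAut.conj_apply, MulAut.one_apply] at h
    exact (mul_inv_eq_iff_eq_mul.mp h).symm
  rcases hs.eq_bot_or_eq_top_of_normal _ (inferInstance : (Subgroup.center _).Normal) with h | h
  · rwa [h, Subgroup.mem_bot] at hc
  · haveI := hs
    rw [(commutator_eq_bot_iff_center_eq_top _).2 h] at hp
    exact absurd hp bot_ne_top

end Cfsg.Agent.KnownB.Proj.Orth

namespace Cfsg.Agent.KnownB.Proj.Orth

open Cfsg.Agent.Forms (qPlus)

universe u

variable {F : Type u} [Field F] [Fintype F] {n : ℕ}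

theorem card_out_plus (hn : 4 ≤ n) {p f : ℕ} [Fact p.Prime] (hF : Fintype.card F = p ^ f)
    (hf : 1 ≤ f) :
    Nat.card (Cfsg.Out (Cfsg.POmega F ⇑(qPlus (n + 1) F))) =
      2 * Nat.gcd 4 ((p ^ f) ^ (n + 1) - 1) * f := by
  have h := card_aut_plus (F := F) (m := n + 1) (by omega) hF hf
  rw [← Forms.coe_qPlus, ← Subgroup.index_mul_card (Cfsg.Inn (Cfsg.POmega F ⇑(qPlus (n + 1) F))),
    card_inn_plus (by omega)] at h
  rw [← Subgroup.index_eq_card]
  exact Nat.eq_of_mul_eq_mul_right Nat.card_pos h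

/-- `π` vanishes on `A`. -/
theorem exists_proj_plus (hn : 4 ≤ n) :
    ∃ π : MulAut (Cfsg.POmega F ⇑(qPlus (n + 1) F)) →* (F ≃+* F),
      ∀ (g : GO (qPlus (n + 1) F)) (σ : fieldSub (qPlus (n + 1) F)),
        π (A _ g * Fd _ σ) = (σ : F ≃+* F) :=
  exists_fieldProj (good_qPlus _ (by omega)) exists_ssim_plus

theorem ptyPlus_of_A_inn (hn : 3 ≤ n) {g : GO (qPlus (n + 1) F)}
    (h : A (qPlus (n + 1) F) g ∈ Cfsg.Inn (Cfsg.POmega F ⇑(qPlus (n + 1) F))) :
    ptyPlus (n + 1) g = 1 := by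
  rw [Inn_eq_map] at h
  obtain ⟨_, ⟨s, hs, rfl⟩, hg⟩ := h
  obtain ⟨u, hu⟩ := (A_eq_one_iff' Forms.qPlus_nondegenerate (by simp; omega)
    ((isoInc _ s)⁻¹ * g)).mp (by rw [map_mul, map_inv, hg, inv_mul_cancel])
  rw [show g = isoInc _ s * sc _ u by rw [hu, mul_inv_cancel_left], map_mul,
    (isPar_plus (Nat.succ_pos n)).scal, mul_one]
  have hhom : ((ptyPlus (n + 1)).comp (isoInc (qPlus (n + 1) F))) s = 1 :=
    Abelianization.commutator_subset_ker _ hs
  exact hhom

theorem ofAdd_one_ne_one : Multiplicative.ofAdd (1 : ZMod 2) ≠ 1 := by decide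

/-- Characteristic two. -/
theorem out_plus_two (hn : 4 ≤ n) {f : ℕ} (hF : Fintype.card F = 2 ^ f) (hf : 1 ≤ f) :
    Nonempty (Cfsg.Out (Cfsg.POmega F ⇑(qPlus (n + 1) F)) ≃* Multiplicative (ZMod 2 × ZMod f)) := by
  classical
  haveI : Fact (Nat.Prime 2) := ⟨Nat.prime_two⟩
  haveI : NeZero f := ⟨by omega⟩
  obtain ⟨π, hπ⟩ := exists_proj_plus (F := F) hn
  obtain ⟨r⟩ := AutPSL.exists_ringAut_equiv (F := F) (by rw [Nat.card_eq_fintype_card, hF]) hf
  let toS : Multiplicative (ZMod f) →* fieldSub (qPlus (n + 1) F) :=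
    r.symm.toMonoidHom.codRestrict _ fun x => by rw [fieldSub_qPlus]; trivial
  let q := QuotientGroup.mk' (Cfsg.Inn (Cfsg.POmega F ⇑(qPlus (n + 1) F)))
  set R := A (qPlus (n + 1) F) (rho n F) with hR
  have hRR : R * R = 1 := by
    rw [hR, ← map_mul, rho, reflGO_mul_self, map_one]
  let ρ : Multiplicative (ZMod 2) →* MulAut (Cfsg.POmega F ⇑(qPlus (n + 1) F)) :=
    MonoidHom.mk' (fun b => if b = 1 then 1 else R) fun a b => by
      have h0 := ofAdd_one_ne_one
      rcases mz2_cases a with rfl | rfl <;> rcases mz2_cases b with rfl | rfl <;>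
        simp [mz2_mul_self, h0, hRR]
  have hcomm : ∀ b x, Commute (q.comp ρ b) ((q.comp ((Fd _).comp toS)) x) := fun b x => by
    refine Commute.map ?_ q
    rcases mz2_cases b with rfl | rfl
    · simp
    · show _ * _ = _ * _
      simp only [ρ, MonoidHom.mk'_apply, MonoidHom.comp_apply,
        if_neg ofAdd_one_ne_one, hR, Fd_A, mapGO_rho]
  let Ψ := (q.comp ρ).noncommCoprod (q.comp ((Fd _).comp toS)) hcomm
  have hinj : Function.Injective Ψ := by
    rw [injective_iff_map_eq_one]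
    rintro ⟨b, x⟩ h
    have h' : ρ b * Fd _ (toS x) ∈ Cfsg.Inn (Cfsg.POmega F ⇑(qPlus (n + 1) F)) :=
      (QuotientGroup.eq_one_iff _).mp h
    obtain ⟨g, hg⟩ : ∃ g, A (qPlus (n + 1) F) g = ρ b * Fd _ (toS x) := by
      rw [Inn_eq_map] at h'
      obtain ⟨g, -, hg⟩ := h'
      exact ⟨g, hg⟩
    have hx : x = 1 := by
      have hb : ∃ k, A (qPlus (n + 1) F) k = ρ b := by
        rcases mz2_cases b with rfl | rfl
        · exact ⟨1, by simp⟩
        · exact ⟨rho n F, by simp [ρ, hR, ofAdd_one_ne_one, -ofAdd_eq_one]⟩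
      obtain ⟨k, hk⟩ := hb
      have h1 := congrArg π hg
      rw [← hk, hπ] at h1
      have h2 := hπ g 1
      rw [map_one, mul_one, h1] at h2
      exact r.symm.injective (by rw [map_one]; exact h2)
    subst hx
    refine Prod.ext ?_ rfl
    rcases mz2_cases b with rfl | rfl
    · rfl
    · exfalso
      rw [map_one toS, map_one (Fd _), mul_one] at h'
      simp only [ρ, MonoidHom.mk'_apply,
        if_neg ofAdd_one_ne_one, hR] at h'
      have := ptyPlus_of_A_inn (by omega) h'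
      rw [rho_pty] at this
      exact absurd this ofAdd_one_ne_one
  haveI : Finite (Cfsg.Out (Cfsg.POmega F ⇑(qPlus (n + 1) F))) := by
    refine Nat.finite_of_card_ne_zero ?_
    rw [card_out_plus hn hF hf, gcd_four_plus hf (by omega)]
    simp; omega
  refine ⟨(MulEquiv.ofBijective Ψ ((Nat.bijective_iff_injective_and_card Ψ).mpr ⟨hinj, ?_⟩)).symm.trans
    (MulEquiv.prodMultiplicative _ _).symm⟩
  rw [card_out_plus hn hF hf, gcd_four_plus hf (by omega), if_pos rfl, Nat.card_prod,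
    Nat.card_congr Multiplicative.toAdd, Nat.card_congr Multiplicative.toAdd, Nat.card_zmod,
    Nat.card_zmod, mul_one]

end Cfsg.Agent.KnownB.Proj.Orth
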