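import Cfsg.Agent.KnownB.Proj.Orth.PlusOut

/-! The outer automorphisms of the plus type, odd characteristic, dimension at least ten. -/

set_option autoImplicit false
set_option maxHeartbeats 1000000
set_option synthInstance.maxHeartbeats 200000

namespace Cfsg.Agent.KnownB.Proj.Orth

open Cfsg.Agent.Forms (qPlus)

universe u v

section Abstract

variable {X : Type u} [Group X]

/-- An element normalising `P`, fixing `r` and a small quotient, acts as `1` or as `r`. -/
theorem exists_twist {P K : Subgroup X} {r x₀ b : X} {f : ℕ} [Finite K]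
    (hr : r ∈ P) (hrr : r * r = 1) (hK : ∀ p ∈ P, ∀ k ∈ K, p * k * p⁻¹ ∈ K)
    (hK2 : Nat.card K ≤ 2) (hx : x₀ ∈ P)
    (hgen : P = Subgroup.closure ((K : Set X) ∪ {r, x₀}))
    (hnc : Nat.card K = 2 → ¬ Commute r x₀)
    (hrx : x₀⁻¹ * (r * x₀ * r⁻¹) ∈ K) (hbK : ∀ k ∈ K, b * k * b⁻¹ ∈ K)
    (hbx : x₀⁻¹ * (b * x₀ * b⁻¹) ∈ K) (hbr : Commute b r) (hbf : b ^ f = 1) :
    ∃ e : X, (e = 1 ∨ e = r) ∧ (∀ p ∈ P, Commute (e * b) p) ∧ (e * b) ^ f = 1 := by
  classical
  have htwo : ∀ k ∈ K, ∀ l ∈ K, k ≠ 1 → l ≠ 1 → k = l := by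
    intro k hk l hl hk1 hl1
    by_contra hne
    let v : Fin 3 → K := ![1, ⟨k, hk⟩, ⟨l, hl⟩]
    have hv : Function.Injective v := by
      intro i j h
      have h' := congrArg Subtype.val h
      fin_cases i <;> fin_cases j <;> simp [v, eq_comm] at h' <;> tauto
    have := Nat.card_le_card_of_injective v hv
    rw [Nat.card_fin] at this
    omega
  have hcent : ∀ a : X, (∀ k ∈ K, a * k * a⁻¹ ∈ K) → ∀ k ∈ K, Commute a k := by
    intro a ha k hk
    by_cases hk1 : k = 1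
    · rw [hk1]; exact Commute.one_right a
    · have := htwo _ (ha k hk) k hk (fun h => hk1 (conj_eq_one_iff.mp h)) hk1
      exact mul_inv_eq_iff_eq_mul.mp this
  have hgenC : ∀ a : X, (∀ k ∈ K, Commute a k) → Commute a r → Commute a x₀ →
      ∀ p ∈ P, Commute a p := by
    intro a hak har hax p hp
    have hle : Subgroup.closure ((K : Set X) ∪ {r, x₀}) ≤ Subgroup.centralizer {a} := by
      rw [Subgroup.closure_le]
      rintro y (hy | rfl | rfl)
      · exact Subgroup.mem_centralizer_singleton_iff.mpr (hak y hy).symm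
      · exact Subgroup.mem_centralizer_singleton_iff.mpr har.symm
      · exact Subgroup.mem_centralizer_singleton_iff.mpr hax.symm
    exact (Subgroup.mem_centralizer_singleton_iff.mp (hle (hgen ▸ hp))).symm
  have hbKc := hcent b hbK
  have hrKc := hcent r (hK r hr)
  by_cases hb : Commute b x₀
  · exact ⟨1, Or.inl rfl, fun p hp => by rw [one_mul]; exact hgenC b hbKc hbr hb p hp,
      by rw [one_mul, hbf]⟩
  have hb1 : x₀⁻¹ * (b * x₀ * b⁻¹) ≠ 1 := fun h => hb (by
    rw [inv_mul_eq_one] at h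
    show b * x₀ = x₀ * b
    exact (mul_inv_eq_iff_eq_mul.mp h.symm))
  have hK2' : Nat.card K = 2 := by
    have h1 : 1 < Nat.card K := by
      rw [Finite.one_lt_card_iff_nontrivial]
      exact ⟨⟨⟨_, hbx⟩, 1, fun h => hb1 (congrArg Subtype.val h)⟩⟩
    omega
  have hr1 : x₀⁻¹ * (r * x₀ * r⁻¹) ≠ 1 := fun h => hnc hK2' (by
    rw [inv_mul_eq_one] at h
    show r * x₀ = x₀ * r
    exact (mul_inv_eq_iff_eq_mul.mp h.symm))
  set z := x₀⁻¹ * (b * x₀ * b⁻¹) with hz
  have hrz : x₀⁻¹ * (r * x₀ * r⁻¹) = z := htwo _ hrx _ hbx hr1 hb1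
  have hbx0 : b * x₀ * b⁻¹ = x₀ * z := by rw [hz]; group
  have hrx0 : r * x₀ * r⁻¹ = x₀ * z := by rw [← hrz]; group
  have hzz : z * z = 1 := by
    by_contra h
    have := htwo _ (mul_mem hbx hbx) _ hbx h hb1
    exact hb1 (mul_eq_left.mp this)
  have hfx : Commute (r * b) x₀ := by
    refine mul_inv_eq_iff_eq_mul.mp ?_
    calc r * b * x₀ * (r * b)⁻¹ = r * (b * x₀ * b⁻¹) * r⁻¹ := by group
      _ = (r * x₀ * r⁻¹) * (r * z * r⁻¹) := by rw [hbx0]; group
      _ = x₀ := by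
        rw [hrx0, (hrKc z hbx).eq, mul_inv_cancel_right, mul_assoc, hzz, mul_one]
  refine ⟨r, Or.inr rfl, fun p hp => hgenC _ (fun k hk => (hrKc k hk).mul_left (hbKc k hk))
    ((Commute.refl r).mul_left hbr) hfx p hp, ?_⟩
  rw [hbr.symm.mul_pow, hbf, mul_one]
  obtain ⟨t, ht⟩ : Even f := by
    by_contra ho
    obtain ⟨t, rfl⟩ := Nat.not_even_iff_odd.mp ho
    refine hb ?_
    have h2 : Commute (b * b) x₀ := by
      refine mul_inv_eq_iff_eq_mul.mp ?_
      calc b * b * x₀ * (b * b)⁻¹ = b * (b * x₀ * b⁻¹) * b⁻¹ := by group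
        _ = b * (x₀ * z) * b⁻¹ := by rw [hbx0]
        _ = (b * x₀ * b⁻¹) * (b * z * b⁻¹) := by group
        _ = x₀ := by rw [hbx0, (hbKc z hbx).eq, mul_inv_cancel_right, mul_assoc, hzz, mul_one]
    rw [pow_succ, pow_mul, sq] at hbf
    rw [eq_inv_of_mul_eq_one_right hbf]
    exact (h2.pow_left t).inv_left
  rw [ht, ← two_mul, pow_mul, sq, hrr, one_pow]

/-- Powers of an element of order dividing `f`. -/
def zmodPowHom {f : ℕ} [NeZero f] (β : X) (h : β ^ f = 1) : Multiplicative (ZMod f) →* X :=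
  MonoidHom.mk' (fun z => β ^ (Multiplicative.toAdd z).val) fun a b => by
    rw [toAdd_mul, ZMod.val_add, ← pow_eq_pow_mod _ h, pow_add]

end Abstract

variable {F : Type u} [Field F] [Fintype F] {n : ℕ}

open scoped Classical in
/-- The class of the multiplier and the parity. -/
noncomputable def clsHom (n : ℕ) (F : Type u) [Field F] [Fintype F] :
    GO (qPlus (n + 1) F) →* ℤˣ × Multiplicative (ZMod 2) :=
  ((quadraticChar F).toUnitHom.comp (sim (exists_ne_qPlus (Nat.succ_pos n)))).prod (ptyPlus (n + 1))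

open scoped Classical in
theorem clsHom_fst_eq_one {g : GO (qPlus (n + 1) F)} :
    (clsHom n F g).1 = 1 ↔
      IsSquare (sim (exists_ne_qPlus (F := F) (Nat.succ_pos n)) g : F) := by
  rw [← quadraticChar_one_iff_isSquare (Units.ne_zero _), Units.ext_iff]
  rfl

theorem ker_le_cls (hn : 3 ≤ n) :
    ((QuotientGroup.mk' (Cfsg.Inn (Cfsg.POmega F ⇑(qPlus (n + 1) F)))).comp
      (A (qPlus (n + 1) F))).ker ≤ (clsHom n F).ker := by
  intro g hg
  have hg' : A (qPlus (n + 1) F) g ∈ Cfsg.Inn (Cfsg.POmega F ⇑(qPlus (n + 1) F)) := (QuotientGroup.eq_one_iff _).mp hg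
  have h1 := ptyPlus_of_A_inn (by omega) hg'
  rw [Inn_eq_map] at hg'
  obtain ⟨_, ⟨s, hs, rfl⟩, hgs⟩ := hg'
  obtain ⟨u, hu⟩ := (A_eq_one_iff' Forms.qPlus_nondegenerate (by simp; omega)
    ((isoInc _ s)⁻¹ * g)).mp (by rw [map_mul, map_inv, hgs, inv_mul_cancel])
  have hV := exists_ne_qPlus (F := F) (Nat.succ_pos n)
  refine Prod.ext (clsHom_fst_eq_one.mpr ⟨u, ?_⟩) h1
  have e1 : sim hV (isoInc _ s) = 1 := by rw [← MonoidHom.mem_ker, sim_ker]; exact ⟨s, rfl⟩
  rw [show g = isoInc _ s * sc _ u by rw [hu, mul_inv_cancel_left], map_mul, e1, one_mul, sim_sc,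
    Units.val_mul]

theorem cls_mapGO (hn : 2 ≤ n) (σ : fieldSub (qPlus (n + 1) F)) (g : GO (qPlus (n + 1) F)) :
    clsHom n F (mapGO σ g) = clsHom n F g := by
  have hV := exists_ne_qPlus (F := F) (Nat.succ_pos n)
  refine Prod.ext ?_ (mapGO_pty (by omega) σ g)
  have hs : sim hV (mapGO σ g) = Units.map (((σ : F ≃+* F) : F →+* F) : F →* F) (sim hV g) :=
    sim_hom ((σ : F ≃+* F) : F →+* F) (fun v => qPlus_comp _ v) hV hV (mapGO σ) (mapGO_val σ) g
  have hiff : IsSquare (sim hV (mapGO σ g) : F) ↔ IsSquare (sim hV g : F) := by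
    rw [hs]
    show IsSquare ((σ : F ≃+* F) (sim hV g : F)) ↔ _
    refine ⟨fun h => ?_, fun h => h.map (σ : F ≃+* F)⟩
    simpa using h.map (σ : F ≃+* F).symm
  rcases Int.units_eq_one_or (clsHom n F g).1 with h | h
  · rw [h]; exact clsHom_fst_eq_one.mpr (hiff.mpr (clsHom_fst_eq_one.mp h))
  · rw [h]
    refine (Int.units_eq_one_or _).resolve_left fun h' => ?_
    have := clsHom_fst_eq_one.mpr (hiff.mp (clsHom_fst_eq_one.mp h'))
    rw [h] at this
    exact absurd this (by decide)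

theorem exists_cls (hn : 3 ≤ n) (h2 : (2 : F) ≠ 0) :
    ∃ x : GO (qPlus (n + 1) F), clsHom n F (rho n F) = (1, Multiplicative.ofAdd 1) ∧
      clsHom n F x = (-1, 1) ∧
      (∀ g, ∃ g' ∈ (clsHom n F).ker,
        g = g' ∨ g = g' * rho n F ∨ g = g' * x ∨ g = g' * (rho n F * x)) ∧
      (clsHom n F).ker.index = 4 := by
  have hV := exists_ne_qPlus (F := F) (Nat.succ_pos n)
  obtain ⟨c, hc⟩ := exists_nonsquare_unit (F := F) h2
  obtain ⟨x, hx1, hx2⟩ : ∃ x : GO (qPlus (n + 1) F),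
      ¬ IsSquare (sim hV x : F) ∧ ptyPlus (n + 1) x = 1 := by
    rcases Nat.even_or_odd (n + 1) with he | ho
    · exact ⟨swapGO _ false c, by rw [sim_swapGO]; exact hc,
        swapGO_pty false (by omega) (by simpa using he) c⟩
    · exact ⟨swapGO _ true c, by rw [sim_swapGO]; exact hc,
        swapGO_pty true (by omega) (by obtain ⟨t, ht⟩ := ho; exact ⟨t, by simp; omega⟩) c⟩
  have hx1' : (clsHom n F x).1 = -1 := (Int.units_eq_one_or _).resolve_left
    fun h => hx1 (clsHom_fst_eq_one.mp h)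
  have hclsx : clsHom n F x = (-1, 1) := Prod.ext hx1' hx2
  have hsimR : (clsHom n F (rho n F)).1 = 1 := clsHom_fst_eq_one.mpr (by
    rw [rho, sim_reflGO, Units.val_one]; exact IsSquare.one)
  have hclsR : clsHom n F (rho n F) = (1, Multiplicative.ofAdd 1) := Prod.ext hsimR rho_pty
  have hcase : ∀ g, ∃ g' ∈ (clsHom n F).ker,
      g = g' ∨ g = g' * rho n F ∨ g = g' * x ∨ g = g' * (rho n F * x) := by
    intro g
    have hmem : ∀ y, clsHom n F g = clsHom n F y → g * y⁻¹ ∈ (clsHom n F).ker := fun y h => by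
      rw [MonoidHom.mem_ker, map_mul, map_inv, h, mul_inv_cancel]
    rcases Int.units_eq_one_or (clsHom n F g).1 with h1 | h1 <;>
      rcases mz2_cases (clsHom n F g).2 with h3 | h3
    · exact ⟨g, Prod.ext h1 h3, Or.inl rfl⟩
    · exact ⟨_, hmem (rho n F) (by rw [hclsR]; exact Prod.ext h1 h3),
        Or.inr (Or.inl (inv_mul_cancel_right _ _).symm)⟩
    · exact ⟨_, hmem x (by rw [hclsx]; exact Prod.ext h1 h3),
        Or.inr (Or.inr (Or.inl (inv_mul_cancel_right _ _).symm))⟩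
    · exact ⟨_, hmem (rho n F * x)
          (by rw [map_mul, hclsR, hclsx]; exact Prod.ext (by simpa using h1) (by simpa using h3)),
        Or.inr (Or.inr (Or.inr (inv_mul_cancel_right _ _).symm))⟩
  refine ⟨x, hclsR, hclsx, hcase, ?_⟩
  rw [Subgroup.index_ker, MonoidHom.range_eq_top.mpr ?_, Subgroup.card_top]
  · rw [Nat.card_prod, Nat.card_congr Multiplicative.toAdd, Nat.card_zmod,
      Nat.card_eq_fintype_card, Fintype.card_units_int]
  rintro ⟨s, t⟩
  rcases Int.units_eq_one_or s with rfl | rfl <;> rcases mz2_cases t with rfl | rfl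
  · exact ⟨1, map_one _⟩
  · exact ⟨_, hclsR⟩
  · exact ⟨_, hclsx⟩
  · exact ⟨rho n F * x, by rw [map_mul, hclsR, hclsx]; simp⟩

/-- The similitude classes from a quotient of `pgoAut`. -/
theorem range_equiv_of_pgo {T : Type v} [Group T]
    (φ : ↥(Cfsg.pgoAut F ⇑(qPlus (n + 1) F)) →* T) (hφ : Function.Surjective φ)
    (hφk : φ.ker = (Cfsg.Inn (Cfsg.POmega F ⇑(qPlus (n + 1) F))).subgroupOf
      (Cfsg.pgoAut F ⇑(qPlus (n + 1) F))) :
    Nonempty (((QuotientGroup.mk' (Cfsg.Inn (Cfsg.POmega F ⇑(qPlus (n + 1) F)))).comp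
      (A (qPlus (n + 1) F))).range ≃* T) := by
  set q := QuotientGroup.mk' (Cfsg.Inn (Cfsg.POmega F ⇑(qPlus (n + 1) F))) with hq
  set P := (q.comp (A (qPlus (n + 1) F))).range with hP
  let ψ : ↥(Cfsg.pgoAut F ⇑(qPlus (n + 1) F)) →* Cfsg.Out (Cfsg.POmega F ⇑(qPlus (n + 1) F)) :=
    q.comp (Cfsg.pgoAut F ⇑(qPlus (n + 1) F)).subtype
  have hψk : ψ.ker = φ.ker := by
    rw [hφk, ← MonoidHom.comap_ker, hq, QuotientGroup.ker_mk']; rfl
  have hψr : ψ.range = P := by
    ext o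
    constructor
    · rintro ⟨⟨y, hy⟩, rfl⟩
      rw [pgoAut_eq] at hy
      obtain ⟨g, rfl⟩ := hy
      exact ⟨g, rfl⟩
    · rintro ⟨g, rfl⟩
      exact ⟨⟨A _ g, by rw [pgoAut_eq]; exact ⟨g, rfl⟩⟩, rfl⟩
  let eT : _ ≃* T := (MulEquiv.subgroupCongr hψr.symm).trans
    ((QuotientGroup.quotientKerEquivRange ψ).symm.trans
      ((QuotientGroup.quotientMulEquivOfEq hψk).trans
        (QuotientGroup.quotientKerEquivOfSurjective φ hφ)))
  exact ⟨eT⟩

theorem map_conj_of_comm {Y Z : Type*} [Group Y] [Group Z] (q : Y →* Z) {a a' φ : Y}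
    (h : φ * a = a' * φ) : q φ * q a * (q φ)⁻¹ = q a' := by
  rw [mul_inv_eq_iff_eq_mul, ← map_mul, ← map_mul, h]

theorem map_map_pow {S Y Z : Type*} [Monoid S] [Monoid Y] [Monoid Z] (q : Y →* Z) (φ : S →* Y)
    (s : S) (k : ℕ) : q (φ s) ^ k = q (φ (s ^ k)) := by
  rw [map_pow, map_pow]

theorem map_mul_map_pow {S Y Z : Type*} [Monoid S] [Monoid Y] [Monoid Z] (q : Y →* Z) (φ : S →* Y)
    (a : Y) (s : S) (k : ℕ) : q a * q (φ s) ^ k = q (a * φ (s ^ k)) := by
  rw [map_map_pow, map_mul]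

/-- Splitting off a cyclic complement acting through a small quotient. -/
theorem split_equiv {G : Type*} {X : Type*} [Group G] [Group X] {V : Type*} [CommGroup V]
    (d : G →* X) (c : G →* V) (b : X) (ψ : G →* G) {ρ x : G} {f : ℕ} [NeZero f]
    {T : Type v} [Group T] [Finite T] (eT : d.range ≃* T)
    (hT : Nat.card T = 4 ∨ (Nat.card T = 8 ∧ ∃ s t : T, ¬ Commute s t))
    (hdker : d.ker ≤ c.ker) (h4 : c.ker.index = 4)
    (hcase : ∀ g, ∃ g' ∈ c.ker, g = g' ∨ g = g' * ρ ∨ g = g' * x ∨ g = g' * (ρ * x))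
    (hψc : ∀ g, c (ψ g) = c g) (hψρ : ψ ρ = ρ) (hRR : d ρ * d ρ = 1)
    (hbg : ∀ g, b * d g * b⁻¹ = d (ψ g)) (hbf : b ^ f = 1)
    (hfree : ∀ g, ∀ k < f, d g * b ^ k = 1 → k = 0)
    (hsurj : ∀ o, ∃ g, ∃ k < f, o = d g * b ^ k) :
    Nonempty (X ≃* T × Multiplicative (ZMod f)) := by
  classical
  set P := d.range with hP
  set K := c.ker.map d with hK
  haveI : Finite P := Finite.of_equiv T eT.symm.toEquiv
  haveI : Finite K := Finite.of_injective (fun k : K => (⟨k.1, Subgroup.map_le_range _ _ k.2⟩ : P))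
    fun k l e => Subtype.ext (congrArg (fun y : P => (y : X)) e)
  have hgen : P = Subgroup.closure ((K : Set X) ∪
      {d ρ, d x}) := by
    refine le_antisymm ?_ ((Subgroup.closure_le _).mpr ?_)
    · rintro _ ⟨g, rfl⟩
      obtain ⟨g', hg', h⟩ := hcase g
      have k1 : d g' ∈ Subgroup.closure ((K : Set _) ∪ {d ρ, d x}) :=
        Subgroup.subset_closure (Or.inl ⟨g', hg', rfl⟩)
      have k2 : d ρ ∈ Subgroup.closure ((K : Set _) ∪ {d ρ, d x}) :=
        Subgroup.subset_closure (Or.inr (Or.inl rfl))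
      have k3 : d x ∈ Subgroup.closure ((K : Set _) ∪ {d ρ, d x}) :=
        Subgroup.subset_closure (Or.inr (Or.inr rfl))
      rcases h with rfl | rfl | rfl | rfl
      · exact k1
      · rw [map_mul]; exact mul_mem k1 k2
      · rw [map_mul]; exact mul_mem k1 k3
      · rw [map_mul, map_mul]; exact mul_mem k1 (mul_mem k2 k3)
    · rintro o (ho | rfl | rfl)
      · exact Subgroup.map_le_range _ _ ho
      · exact ⟨_, rfl⟩
      · exact ⟨_, rfl⟩
  have hindex : Nat.card P = 4 * Nat.card K := by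
    have h1 : Nat.card K = d.ker.relIndex c.ker := by
      have hr : K = (d.comp c.ker.subtype).range := by
        rw [hK, MonoidHom.range_comp, Subgroup.range_subtype]
      rw [hr, ← Subgroup.index_ker, ← MonoidHom.comap_ker]
      rfl
    rw [hP, ← Subgroup.index_ker, ← Subgroup.relIndex_mul_index hdker, h1, h4, mul_comm]
  have hcc : ∀ g h, c (g * h * g⁻¹) = c h := fun g h => by
    rw [map_mul, map_mul, map_inv, mul_comm (c g), mul_inv_cancel_right]
  obtain ⟨e, he, hec, hef⟩ := exists_twist (P := P) (K := K) (r := d ρ) (x₀ := d x)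
    (b := b) (f := f) ⟨_, rfl⟩ hRR
    (by rintro _ ⟨g, rfl⟩ _ ⟨k, hk, rfl⟩
        exact ⟨g * k * g⁻¹, (hcc g k).trans hk, by simp⟩)
    (by
      have hc' := Nat.card_congr eT.toEquiv
      rcases hT with h | ⟨h, -⟩ <;> omega)
    ⟨_, rfl⟩ hgen
    (by
      intro hK2 hcom
      have hc' := Nat.card_congr eT.toEquiv
      rcases hT with h | ⟨-, s, t, hst⟩
      · omega
      refine hst ?_
      have hab : ∀ y ∈ P, ∀ z ∈ P, Commute y z := by
        have hnorm : ∀ p ∈ P, ∀ k ∈ K, Commute p k := by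
          rintro _ ⟨g, rfl⟩ k hk
          by_cases hk1 : k = 1
          · rw [hk1]; exact Commute.one_right _
          have hck : d g * k * (d g)⁻¹ ∈ K := by
            obtain ⟨k', hk', rfl⟩ := hk
            exact ⟨g * k' * g⁻¹, (hcc g k').trans hk', by simp⟩
          obtain ⟨u, v, -, huv⟩ := Nat.card_eq_two_iff.mp hK2
          have hall : ∀ w : K, w = u ∨ w = v := fun w => by
            simpa using huv.symm.subset (Set.mem_univ w)
          have key : (⟨_, hck⟩ : K) = ⟨k, hk⟩ := by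
            have hne : (⟨_, hck⟩ : K) ≠ 1 := fun h =>
              hk1 (conj_eq_one_iff.mp (congrArg Subtype.val h))
            have hk1' : (⟨k, hk⟩ : K) ≠ 1 := fun h => hk1 (congrArg Subtype.val h)
            rcases hall 1 with h0 | h0 <;> rcases hall ⟨_, hck⟩ with h1 | h1 <;>
              rcases hall ⟨k, hk⟩ with h3 | h3 <;> simp_all
          exact mul_inv_eq_iff_eq_mul.mp (congrArg Subtype.val key)
        have hcl : ∀ a ∈ ((K : Set X) ∪
            {d ρ, d x}), ∀ z ∈ P, Commute a z := by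
          rintro a ha z hz
          have hle : Subgroup.closure ((K : Set _) ∪ {d ρ, d x}) ≤
              Subgroup.centralizer {a} := by
            rw [Subgroup.closure_le]
            rintro y hy
            refine Subgroup.mem_centralizer_singleton_iff.mpr ?_
            rcases ha with ha | rfl | rfl
            · exact (hnorm y (hgen ▸ Subgroup.subset_closure hy) a ha).eq
            · rcases hy with hy | rfl | rfl
              · exact (hnorm _ ⟨_, rfl⟩ y hy).symm.eq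
              · rfl
              · exact hcom.symm.eq
            · rcases hy with hy | rfl | rfl
              · exact (hnorm _ ⟨_, rfl⟩ y hy).symm.eq
              · exact hcom.eq
              · rfl
          exact (Subgroup.mem_centralizer_singleton_iff.mp (hle (hgen ▸ hz))).symm
        intro y hy z hz
        have hle : Subgroup.closure ((K : Set _) ∪ {d ρ, d x}) ≤
            Subgroup.centralizer {z} := by
          rw [Subgroup.closure_le]
          exact fun a ha => Subgroup.mem_centralizer_singleton_iff.mpr (hcl a ha z hz).eq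
        exact Subgroup.mem_centralizer_singleton_iff.mp (hle (hgen ▸ hy))
      have := (hab _ (eT.symm s).2 _ (eT.symm t).2)
      have h' : Commute (eT.symm s) (eT.symm t) := Subtype.ext this
      simpa using h'.map eT.toMonoidHom)
    ⟨x⁻¹ * (ρ * x * ρ⁻¹), by
      show c _ = 1
      rw [map_mul, map_inv, hcc, inv_mul_cancel], by simp⟩
    (by
      rintro _ ⟨k, hk, rfl⟩
      exact ⟨ψ k, (hψc k).trans hk, (hbg k).symm⟩)
    ⟨x⁻¹ * ψ x, by
      show c _ = 1
      rw [map_mul, map_inv, hψc, inv_mul_cancel], by rw [hbg, map_mul, map_inv]⟩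
    (by
      show _ * _ = _ * _
      rw [← mul_inv_eq_iff_eq_mul, hbg, hψρ])
    hbf
  have heP : e ∈ P := by
    rcases he with rfl | rfl
    · exact one_mem _
    · exact ⟨_, rfl⟩
  have heb : Commute e b := by
    rcases he with rfl | rfl
    · exact Commute.one_left b
    · show _ * _ = _ * _
      rw [eq_comm, ← mul_inv_eq_iff_eq_mul, hbg, hψρ]
  let Ψ := P.subtype.noncommCoprod (zmodPowHom (e * b) hef) fun y z =>
    ((hec y.1 y.2).symm.pow_right _)
  have hbij : Function.Bijective Ψ := by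
    refine ⟨?_, fun o => ?_⟩
    · rw [injective_iff_map_eq_one]
      rintro ⟨⟨y, hy⟩, z⟩ h
      have h' : y * (e * b) ^ (Multiplicative.toAdd z).val = 1 := h
      rw [heb.mul_pow, ← mul_assoc] at h'
      obtain ⟨g', hg'⟩ := mul_mem hy (pow_mem heP (Multiplicative.toAdd z).val)
      rw [← hg'] at h'
      have hz := hfree g' _ (ZMod.val_lt _) h'
      rw [hz, pow_zero, mul_one] at hg'
      rw [hz, pow_zero, mul_one, hg'] at h'
      refine Prod.ext (Subtype.ext h') (Multiplicative.toAdd.injective ?_)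
      rw [← ZMod.natCast_zmod_val (Multiplicative.toAdd z), hz, Nat.cast_zero]
      rfl
    · obtain ⟨g, k, hk, rfl⟩ := hsurj o
      refine ⟨(⟨d g * (e ^ k)⁻¹, mul_mem ⟨g, rfl⟩ (inv_mem (pow_mem heP _))⟩,
        Multiplicative.ofAdd (k : ZMod f)), ?_⟩
      show d g * _ * (e * b) ^ (k : ZMod f).val = _
      rw [ZMod.val_natCast_of_lt hk, heb.mul_pow, mul_assoc, inv_mul_cancel_left]
  exact ⟨(MulEquiv.ofBijective Ψ hbij).symm.trans (eT.prodCongr (MulEquiv.refl _))⟩

theorem surj_parts (hn : 4 ≤ n) {f : ℕ} [NeZero f] (r : (F ≃+* F) ≃* Multiplicative (ZMod f))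
    {τ : F ≃+* F} {σ₀ : fieldSub (qPlus (n + 1) F)}
    (hr : ∀ z : Multiplicative (ZMod f), r.symm z = τ ^ (Multiplicative.toAdd z).val)
    (hσ : ∀ k, (((σ₀ ^ k : fieldSub (qPlus (n + 1) F))) : F ≃+* F) = τ ^ k)
    (o : MulAut (Cfsg.POmega F ⇑(qPlus (n + 1) F)) ⧸ Cfsg.Inn (Cfsg.POmega F ⇑(qPlus (n + 1) F))) :
    ∃ g : GO (qPlus (n + 1) F), ∃ k < f,
      o = (QuotientGroup.mk' (Cfsg.Inn (Cfsg.POmega F ⇑(qPlus (n + 1) F)))).comp
          (A (qPlus (n + 1) F)) g *
        QuotientGroup.mk' (Cfsg.Inn (Cfsg.POmega F ⇑(qPlus (n + 1) F)))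
          (Fd (qPlus (n + 1) F) σ₀) ^ k := by
  obtain ⟨β, hβ'⟩ := QuotientGroup.mk'_surjective (Cfsg.Inn (Cfsg.POmega F ⇑(qPlus (n + 1) F))) o
  obtain ⟨g, σ, hβ⟩ := exists_decomp (good_qPlus (F := F) (n + 1) (by omega)) fieldSub_qPlus β
  refine ⟨g, (Multiplicative.toAdd (r (σ : F ≃+* F))).val, ZMod.val_lt _, ?_⟩
  have hσe : σ = σ₀ ^ (Multiplicative.toAdd (r (σ : F ≃+* F))).val :=
    Subtype.ext (((r.symm_apply_apply _).symm.trans (hr _)).trans (hσ _).symm)
  rw [MonoidHom.comp_apply, map_mul_map_pow, ← hσe, ← hβ, hβ']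

/-- Odd characteristic: the group of similitude classes times the field automorphisms. -/
theorem out_plus_odd (hn : 4 ≤ n) {p f : ℕ} [Fact p.Prime] (hF : Fintype.card F = p ^ f)
    (hf : 1 ≤ f) (hodd : Odd (Fintype.card F)) {T : Type v} [Group T] [Finite T]
    (hPT : Nonempty (((QuotientGroup.mk' (Cfsg.Inn (Cfsg.POmega F ⇑(qPlus (n + 1) F)))).comp
      (A (qPlus (n + 1) F))).range ≃* T))
    (hT : Nat.card T = 4 ∨ (Nat.card T = 8 ∧ ∃ s t : T, ¬ Commute s t)) :
    Nonempty (Cfsg.Out (Cfsg.POmega F ⇑(qPlus (n + 1) F)) ≃* T × Multiplicative (ZMod f)) := by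
  haveI : NeZero f := ⟨by omega⟩
  obtain ⟨eT⟩ := hPT
  obtain ⟨π, hπ⟩ := exists_proj_plus (F := F) hn
  obtain ⟨r⟩ := AutPSL.exists_ringAut_equiv (F := F) (by rw [Nat.card_eq_fintype_card, hF]) hf
  obtain ⟨x, hclsR, hclsx, hcase, h4⟩ := exists_cls (F := F) (n := n) (by omega)
    (two_ne_zero_card hodd)
  let τ : F ≃+* F := r.symm (Multiplicative.ofAdd 1)
  let σ₀ : fieldSub (qPlus (n + 1) F) := ⟨τ, by rw [fieldSub_qPlus]; trivial⟩
  have hr : ∀ z : Multiplicative (ZMod f), r.symm z = τ ^ (Multiplicative.toAdd z).val := fun z => by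
    rw [← map_pow]
    refine congrArg _ (Multiplicative.toAdd.injective ?_)
    rw [toAdd_pow]
    simp
  have hord : orderOf τ = f := by
    rw [show τ = r.symm (Multiplicative.ofAdd 1) from rfl, MulEquiv.orderOf_eq,
      orderOf_ofAdd_eq_addOrderOf, ZMod.addOrderOf_one]
  have hσ : ∀ k, (((σ₀ ^ k : fieldSub (qPlus (n + 1) F))) : F ≃+* F) = τ ^ k := fun k =>
    SubmonoidClass.coe_pow σ₀ k
  have hσf : σ₀ ^ f = 1 := Subtype.ext (by rw [hσ, ← hord, pow_orderOf_eq_one]; rfl)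
  refine split_equiv ((QuotientGroup.mk' (Cfsg.Inn (Cfsg.POmega F ⇑(qPlus (n + 1) F)))).comp
      (A (qPlus (n + 1) F))) (clsHom n F)
    (QuotientGroup.mk' (Cfsg.Inn (Cfsg.POmega F ⇑(qPlus (n + 1) F)))
      (Fd (qPlus (n + 1) F) σ₀)) (mapGO σ₀) (f := f) (x := x) eT hT
    (ker_le_cls (by omega)) h4 hcase (cls_mapGO (by omega) σ₀) (mapGO_rho σ₀) ?_ ?_ ?_ ?_ ?_
  · rw [← map_mul, rho, reflGO_mul_self, map_one]
  · exact fun g => map_conj_of_comm _ (Fd_A σ₀ g)
  · rw [map_map_pow, hσf, map_one, map_one]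
  · intro g k hk h
    have h' := (QuotientGroup.eq_one_iff _).mp
      ((map_mul_map_pow (QuotientGroup.mk' _) (Fd _) (A _ g) σ₀ k).symm.trans h)
    rw [Inn_eq_map] at h'
    obtain ⟨g', -, hg'⟩ := h'
    have h1 := hπ g' 1
    rw [map_one, mul_one, hg', hπ, hσ] at h1
    rcases Nat.eq_zero_or_pos k with h0 | h0
    · exact h0
    · exact absurd (Nat.le_of_dvd h0 (hord ▸ orderOf_dvd_of_pow_eq_one h1)) (by omega)
  · exact surj_parts hn r hr hσ

end Cfsg.Agent.KnownB.Proj.Orth
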