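import Cfsg.Agent.KnownB.Proj.Orth.PlusSpinor

/-! Centralisers and splitting of field classes of the plus type. -/

set_option autoImplicit false
set_option maxHeartbeats 1000000

namespace Cfsg.Agent.KnownB.Proj.Orth

open Matrix Module
open Cfsg.Agent.Forms (qPlus)
open Cfsg.Agent.KnownB.AutPSL (fixSub mem_fixSub splitClassCount_eq_relIndex)

universe u v

variable {F : Type u} [Field F] [Fintype F]

section Basic

variable {n : ℕ}

local notation "Ip" => (Fin (n + 1) ⊕ Fin (n + 1))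

/-- The field twist, also in dimension eight. -/
theorem plusFieldTwist' (hn : 3 ≤ n) {r : ℕ} (hr : 0 < r) {σ : fieldSub (qPlus (n + 1) F)}
    (hσ : orderOf (σ : F ≃+* F) = r) :
    GTwist ((A (qPlus (n + 1) F)).comp (ptyPlus (n + 1)).ker.subtype) (Fd (qPlus (n + 1) F) σ)
      (scKer (ptyPlus (n + 1)) (isPar_plus (Nat.succ_pos n)).scal)
      (kerMap (ptyPlus (n + 1)) (mapGO σ) (fun g => ptyPlus_mapGO (by omega) σ g))
      (Units.map ((σ : F ≃+* F) : F →* F)) r :=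
  parTwist (fun g => A_eq_one_iff' Forms.qPlus_nondegenerate (by simp; omega) g)
    (exists_ne_qPlus (Nat.succ_pos n)) ⟨Sum.inl 0⟩ _ _ _ _ (fun g => Fd_A σ g) _ hr hσ
    (by rw [← map_pow, show σ ^ r = 1 from Subtype.ext (by
      rw [SubmonoidClass.coe_pow, ← hσ, pow_orderOf_eq_one]; rfl), map_one])
    (mapGO_iter_order σ hσ) (mapGO_sc σ) (lang_plus_field (by omega) hr σ hσ)

/-- The field automorphisms act faithfully. -/
theorem eq_one_of_Fd (hn : 3 ≤ n) (σ : fieldSub (qPlus (n + 1) F))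
    (h : Fd (qPlus (n + 1) F) σ = 1) : σ = 1 := by
  refine Subtype.ext (RingEquiv.ext fun x => ?_)
  by_cases hx : x = 0
  · subst hx; simp
  set c : Fˣ := Units.mk0 x hx
  set g := diagGO (n + 1) (1 : Fin (n + 1) → Fˣ) c with hg
  have h1 := Fd_A σ g
  rw [h, one_mul, mul_one] at h1
  obtain ⟨u, hu⟩ := (A_eq_one_iff' Forms.qPlus_nondegenerate (by simp; omega)
    (g⁻¹ * mapGO σ g)).mp (by rw [map_mul, map_inv, ← h1, inv_mul_cancel])
  have h2 : mapGO σ g = g * sc _ u := by rw [hu, mul_inv_cancel_left]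
  have key : ∀ l, (σ : F ≃+* F) ((g.1 : Matrix Ip Ip F) l l) =
      (u : F) * (g.1 : Matrix Ip Ip F) l l := by
    intro l
    have h3 := congrArg (fun y : GO (qPlus (n + 1) F) =>
      ((y.1 : Matrix Ip Ip F) *ᵥ Pi.single l 1) l) h2
    simp only [Matrix.mulVec_single_one, Matrix.col_apply] at h3
    rw [mapGO_val, Matrix.map_apply] at h3
    refine h3.trans ?_
    show ((g.1 : Matrix Ip Ip F) * ((sc (qPlus (n + 1) F) u).1 : Matrix Ip Ip F)) l l = _
    have hs : ((sc (qPlus (n + 1) F) u).1 : Matrix Ip Ip F) = Matrix.scalar Ip (u : F) := rfl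
    rw [hs, Matrix.scalar_apply, Matrix.mul_diagonal]
    ring
  have hl : ∀ l, (g.1 : Matrix Ip Ip F) l l =
      Sum.elim (fun _ => (c : F)) (fun _ => 1) l := by
    intro l
    have h4 := congrFun (diagGO_apply (1 : Fin (n + 1) → Fˣ) c (Pi.single l 1)) l
    rw [Matrix.mulVec_single_one, Matrix.col_apply] at h4
    refine h4.trans ?_
    rcases l with i | i <;> simp
  have h5 := key (Sum.inr 0)
  rw [hl, Sum.elim_inr, map_one, mul_one] at h5
  have h6 := key (Sum.inl 0)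
  rw [hl, Sum.elim_inl, ← h5, one_mul] at h6
  exact h6

theorem orderOf_Fd' (hn : 3 ≤ n) (σ : fieldSub (qPlus (n + 1) F)) :
    orderOf (Fd (qPlus (n + 1) F) σ) = orderOf (σ : F ≃+* F) := by
  rw [Subgroup.orderOf_coe, orderOf_injective (Fd (qPlus (n + 1) F))
    ((injective_iff_map_eq_one _).mpr (eq_one_of_Fd hn)) σ]

theorem inn_le_plus (hn : 3 ≤ n) :
    Cfsg.Inn (Cfsg.POmega F ⇑(qPlus (n + 1) F)) ≤ (ptyPlus (n + 1)).ker.map (A _) := by
  rw [Inn_eq_map]
  refine Subgroup.map_mono ?_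
  rintro _ ⟨s, hs, rfl⟩
  have hhom : ((ptyPlus (n + 1)).comp (isoInc (qPlus (n + 1) F))) s = 1 :=
    Abelianization.commutator_subset_ker _ hs
  exact hhom

/-- `Inndiag` has index four over the inner automorphisms when `q ≡ 1 (mod 4)`. -/
theorem relIndex_inn_plus (hn : 3 ≤ n) (hodd : Odd (Fintype.card F))
    (hq : Fintype.card F % 4 = 1) :
    (Cfsg.Inn (Cfsg.POmega F ⇑(qPlus (n + 1) F))).relIndex
      ((ptyPlus (n + 1)).ker.map (A (qPlus (n + 1) F))) = 4 := by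
  obtain ⟨⟨-, h4, hk⟩, -⟩ := plus_results hodd (m := n + 1) (by omega) (⇑(qPlus (n + 1) F)) rfl
  rw [← inndiag_plus_eq]
  rcases Nat.even_or_odd (n + 1) with he | ho
  · obtain ⟨φ, hφ, hφk⟩ := hk he
    rw [Subgroup.relIndex]
    refine (congrArg Subgroup.index hφk.symm).trans ?_
    rw [Subgroup.index_ker, MonoidHom.range_eq_top.mpr hφ, Subgroup.card_top,
      Nat.card_congr Multiplicative.toAdd, Nat.card_prod, Nat.card_zmod]
  · obtain ⟨φ, hφ, hφk⟩ := h4 ⟨ho, hq⟩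
    rw [Subgroup.relIndex]
    refine (congrArg Subgroup.index hφk.symm).trans ?_
    rw [Subgroup.index_ker, MonoidHom.range_eq_top.mpr hφ, Subgroup.card_top,
      Nat.card_congr Multiplicative.toAdd, Nat.card_zmod]

end Basic

theorem relIndex_sup_zpowers {X : Type u} [Group X] {I D : Subgroup X} [I.Normal] {a : X}
    (hID : I ≤ D) (haD : a ∈ D) (ha2 : a * a ∈ I) (hI : I.relIndex D = 4) :
    (a ∈ I → (I ⊔ Subgroup.zpowers a).relIndex D = 4) ∧
      (a ∉ I → (I ⊔ Subgroup.zpowers a).relIndex D = 2) := by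
  refine ⟨fun ha => by
    rw [sup_eq_left.mpr (Subgroup.zpowers_le.mpr ha)]; exact hI, fun ha => ?_⟩
  have hM : I ⊔ Subgroup.zpowers a ≤ D := sup_le hID (Subgroup.zpowers_le.mpr haD)
  have h := Subgroup.relIndex_mul_relIndex I _ D le_sup_left hM
  have hIM : I.relIndex (I ⊔ Subgroup.zpowers a) = 2 := by
    rw [Subgroup.relIndex, Subgroup.index_eq_two_iff]
    refine ⟨⟨a, Subgroup.mem_sup_right (Subgroup.mem_zpowers a)⟩, ?_⟩
    rintro ⟨b, hb⟩
    simp only [Subgroup.mem_subgroupOf, Subgroup.coe_mul]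
    have hb' : b ∈ ((I ⊔ Subgroup.zpowers a : Subgroup X) : Set X) := hb
    rw [Subgroup.normal_mul] at hb'
    obtain ⟨i, hi, _, ⟨k, rfl⟩, rfl⟩ := hb'
    simp only at *
    rcases Int.even_or_odd k with ⟨t, ht⟩ | ⟨t, ht⟩
    · have hk : a ^ k ∈ I := by
        rw [ht, ← two_mul, _root_.zpow_mul, zpow_two]; exact zpow_mem ha2 t
      refine Or.inr ⟨mul_mem hi hk, fun h' => ha ?_⟩
      rw [Subgroup.mul_mem_cancel_left _ (mul_mem hi hk)] at h'
      exact h'
    · have hk : a ^ (k + 1) ∈ I := by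
        rw [ht, show (2 * t + 1 + 1 : ℤ) = 2 * (t + 1) by ring, _root_.zpow_mul, zpow_two]
        exact zpow_mem ha2 _
      have h1 : i * a ^ k * a ∈ I := by
        rw [mul_assoc, ← _root_.zpow_add_one]; exact mul_mem hi hk
      refine Or.inl ⟨h1, fun h' => ha ?_⟩
      rw [Subgroup.mul_mem_cancel_left _ h'] at h1
      exact h1
  rw [hI, hIM] at h
  omega

theorem odd_half_iff (t : ℕ) : (2 * t + 1) % 4 = 3 ↔ Odd t := by rw [Nat.odd_iff]; omega

/-- Square roots of rational non-squares in a quadratic extension. -/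
theorem sqrt_rational {F₀ : Type v} [Field F₀] [Fintype F₀] (j : F₀ →+* F) (h2 : (2 : F) ≠ 0)
    (hq : Fintype.card F = Fintype.card F₀ ^ 2) {c : F₀} (hc : ¬ IsSquare c) :
    (∀ a : F₀, IsSquare (j a)) ∧
      ∀ u : F, u * u = j c → (IsSquare u ↔ Fintype.card F₀ % 4 = 3) := by
  have h20 : (2 : F₀) ≠ 0 := fun h => h2 (by rw [← map_ofNat j 2, h, map_zero])
  have hr : ringChar F ≠ 2 := fun h => h2 (by
    have := ringChar.Nat.cast_ringChar (R := F); rw [h] at this; simpa using this)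
  have hr0 : ringChar F₀ ≠ 2 := fun h => h20 (by
    have := ringChar.Nat.cast_ringChar (R := F₀); rw [h] at this; simpa using this)
  have hodd : Fintype.card F₀ % 2 = 1 := FiniteField.odd_card_of_char_ne_two hr0
  obtain ⟨t, ht⟩ : ∃ t, Fintype.card F₀ = 2 * t + 1 := ⟨Fintype.card F₀ / 2, by omega⟩
  have hhalf : Fintype.card F / 2 = 2 * (t * (t + 1)) := by
    rw [hq, ht, show (2 * t + 1) ^ 2 = 1 + 2 * (2 * (t * (t + 1))) by ring,
      Nat.add_mul_div_left _ _ two_pos]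
    norm_num
  have hpow : ∀ a : F₀, a ≠ 0 → (a ^ t) ^ 2 = 1 := fun a ha => by
    rw [← pow_mul, show t * 2 = Fintype.card F₀ - 1 by omega]
    exact FiniteField.pow_card_sub_one_eq_one a ha
  constructor
  · intro a
    by_cases ha : a = 0
    · rw [ha, map_zero]; exact IsSquare.zero
    rw [FiniteField.isSquare_iff hr ((map_ne_zero j).mpr ha), hhalf, ← map_pow,
      show 2 * (t * (t + 1)) = t * 2 * (t + 1) by ring, pow_mul, pow_mul, hpow a ha, one_pow,
      map_one]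
  · intro u hu
    have hc0 : c ≠ 0 := fun h => hc (h ▸ IsSquare.zero)
    have hu0 : u ≠ 0 := fun h => by
      rw [h, mul_zero] at hu
      exact (map_ne_zero j).mpr hc0 hu.symm
    have hct : c ^ t = -1 := by
      have h1 := hpow c hc0
      rcases sq_eq_one_iff.mp h1 with h | h
      · exact absurd ((FiniteField.isSquare_iff hr0 hc0).mpr (by
          rwa [show Fintype.card F₀ / 2 = t by omega])) hc
      · exact h
    rw [FiniteField.isSquare_iff hr hu0, hhalf, pow_mul, sq, hu, ← map_pow, pow_mul, hct,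
      map_pow, map_neg, map_one, ht, odd_half_iff]
    constructor
    · intro h
      by_contra ht'
      rw [(Nat.not_odd_iff_even.mp ht').add_one.neg_one_pow] at h
      exact h2 (by linear_combination -h)
    · intro h
      exact (Odd.add_one h).neg_one_pow

section Main

variable {n : ℕ}

theorem A_sc_mul (hn : 3 ≤ n) (u : Fˣ) (g : GO (qPlus (n + 1) F)) :
    A (qPlus (n + 1) F) (sc _ u * g) = A (qPlus (n + 1) F) g :=
  (map_mul (A (qPlus (n + 1) F)) _ _).trans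
    (mul_eq_right.mpr ((A_eq_one_iff' Forms.qPlus_nondegenerate (by simp; omega) _).mpr ⟨u, rfl⟩))

/-- The quadratic case: two or four classes. -/
theorem relIndex_quadratic (hn : 3 ≤ n) {p f : ℕ} [Fact p.Prime] (hF : Fintype.card F = p ^ f)
    (hp2 : p ≠ 2) (hrf : 2 ∣ f) {F₀ : Type v} [Field F₀] [Fintype F₀]
    (hF₀ : Fintype.card F₀ = p ^ (f / 2)) (j : F₀ →+* F) (σ' : fieldSub (qPlus (n + 1) F))
    (hj : ∀ x : F, (σ' : F ≃+* F) x = x ↔ x ∈ j.range)
    (hinv : ∀ g, ptyPlus (n + 1) (mapGO σ' g) = ptyPlus (n + 1) g)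
    (hcen : (ptyPlus (n + 1)).ker.map (A (qPlus (n + 1) F)) ⊓
        Subgroup.centralizer {Fd (qPlus (n + 1) F) σ'} =
      (fixSub (kerMap (ptyPlus (n + 1)) (mapGO σ') hinv)).map
        ((A (qPlus (n + 1) F)).comp (ptyPlus (n + 1)).ker.subtype)) :
    (Cfsg.Inn (Cfsg.POmega F ⇑(qPlus (n + 1) F)) ⊔
      ((ptyPlus (n + 1)).ker.map (A (qPlus (n + 1) F)) ⊓
        Subgroup.centralizer {Fd (qPlus (n + 1) F) σ'})).relIndex
        ((ptyPlus (n + 1)).ker.map (A (qPlus (n + 1) F))) =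
      if Odd (n + 1) ∧ p ^ (f / 2) % 4 = 1 then 2 else 4 := by
  classical
  have hQ : ∀ v, qPlus (n + 1) F (⇑j ∘ v) = j (qPlus (n + 1) F₀ v) := fun v => qPlus_comp j v
  have hm1 : 1 ≤ n + 1 := by omega
  have hA := fun g : GO (qPlus (n + 1) F) =>
    A_eq_one_iff' (Forms.qPlus_nondegenerate (m := n + 1)) (by simp; omega) g
  have hdim : 5 ≤ Fintype.card (Fin (n + 1) ⊕ Fin (n + 1)) := by simp; omega
  set D := (ptyPlus (n + 1)).ker.map (A (qPlus (n + 1) F)) with hD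
  set I := Cfsg.Inn (Cfsg.POmega F ⇑(qPlus (n + 1) F)) with hI
  have hID : I ≤ D := inn_le_plus hn
  have hpar : ∀ g₀, ptyPlus (n + 1) (liftJ j hQ g₀) = ptyPlus (n + 1) g₀ :=
    par_comp j hQ Forms.qPlus_nondegenerate hdim (isPar_plus hm1) (isPar_plus hm1) (liftJ j hQ)
      (liftJ_val j hQ)
  have hmemC : ∀ g₀, ptyPlus (n + 1) g₀ = 1 → A (qPlus (n + 1) F) (liftJ j hQ g₀) ∈
      D ⊓ Subgroup.centralizer {Fd (qPlus (n + 1) F) σ'} := by
    intro g₀ hg₀
    rw [hcen]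
    exact ⟨⟨liftJ j hQ g₀, (hpar g₀).trans hg₀⟩, mem_fixSub.mpr (Subtype.ext
      ((range_liftJ_eq j σ' hj hQ (exists_ne_qPlus hm1) _).mpr ⟨g₀, rfl⟩)), rfl⟩
  have hodd : Odd (Fintype.card F) := hF ▸ ((Fact.out : p.Prime).odd_of_ne_two hp2).pow
  have h2 := two_ne_zero_card hodd
  have hq : Fintype.card F = Fintype.card F₀ ^ 2 := by
    rw [hF, hF₀, ← pow_mul, Nat.div_mul_cancel hrf]
  have hq4 : Fintype.card F % 4 = 1 := by
    obtain ⟨t, ht⟩ : Odd (Fintype.card F₀) := hF₀ ▸ ((Fact.out : p.Prime).odd_of_ne_two hp2).pow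
    rw [hq, ht, show (2 * t + 1) ^ 2 = 4 * (t * t + t) + 1 by ring]
    omega
  have h20 : (2 : F₀) ≠ 0 := fun h => h2 (by rw [← map_ofNat j 2, h, map_zero])
  obtain ⟨c, hc⟩ := exists_nonsquare_unit (F := F₀) h20
  obtain ⟨hsq, hroot⟩ := sqrt_rational j h2 hq hc
  obtain ⟨w, hw⟩ := hsq (c : F₀)
  have hw0 : w ≠ 0 := fun h => by
    rw [h, mul_zero] at hw
    exact (map_ne_zero j).mpr c.ne_zero hw
  set u : Fˣ := Units.mk0 w hw0
  have hneg : IsSquare (-1 : F) := by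
    rw [FiniteField.isSquare_neg_one_iff]; omega
  set d₀ := diagGO (n + 1) (1 : Fin (n + 1) → F₀ˣ) c with hd₀
  set a := A (qPlus (n + 1) F) (liftJ j hQ d₀) with ha
  have hlift : liftJ j hQ d₀ =
      sc (qPlus (n + 1) F) u * isoInc _ (diagIso hm1 fun _ => u) := by
    rw [isoInc_diagIso, sc_eq_diag, ← diagGO_mul]
    refine go_ext fun v => ?_
    rw [diagGO_apply, liftJ_val]
    funext l
    have hsimp : ((d₀.1 : Matrix _ _ F₀).map j *ᵥ v) l = j ((d₀.1 : Matrix _ _ F₀) l l) * v l := by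
      rw [Matrix.mulVec, dotProduct, Finset.sum_eq_single l]
      · rfl
      · intro k _ hk
        have h0 : (d₀.1 : Matrix _ _ F₀) l k = 0 := by
          have h4 := congrFun (diagGO_apply (1 : Fin (n + 1) → F₀ˣ) c (Pi.single k 1)) l
          rw [Matrix.mulVec_single_one, Matrix.col_apply] at h4
          refine h4.trans ?_
          rcases l with i | i <;> simp [Pi.single_apply, Ne.symm hk]
        simp [h0]
      · simp
    have hdd : (d₀.1 : Matrix _ _ F₀) l l = Sum.elim (fun _ => (c : F₀)) (fun _ => 1) l := by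
      have h4 := congrFun (diagGO_apply (1 : Fin (n + 1) → F₀ˣ) c (Pi.single l 1)) l
      rw [Matrix.mulVec_single_one, Matrix.col_apply] at h4
      refine h4.trans ?_
      rcases l with i | i <;> simp
    rw [hsimp, hdd]
    rcases l with i | i <;> simp [u, hw] <;> field_simp
  have haA : a = A (qPlus (n + 1) F) (isoInc _ (diagIso hm1 fun _ => u)) := by
    rw [ha, hlift]
    exact A_sc_mul hn u _
  have hw' : w * w = j (c : F₀) := hw.symm
  have hspin := spinor_const (F := F) hm1 h2 u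
  have hpm : ∀ k : ℕ, ((-1 : ℤˣ) ^ k = 1) ↔ Even k := fun k => by
    rcases Nat.even_or_odd k with h | h
    · simp [h.neg_one_pow, h]
    · rw [h.neg_one_pow]
      exact iff_of_false (by decide) (Nat.not_even_iff_odd.mpr h)
  have hiff : a ∈ I ↔ ¬ (Odd (n + 1) ∧ p ^ (f / 2) % 4 = 1) := by
    rw [haA, ← hF₀]
    have hcard0 : Fintype.card F₀ % 2 = 1 := by
      rw [hF₀]; exact Nat.odd_iff.mp ((Fact.out : p.Prime).odd_of_ne_two hp2).pow
    constructor
    · rintro h ⟨ho, h1⟩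
      have hs := spinor_of_A_inn (by omega) h2 hneg _ h
      rw [hspin.2 (fun hu => absurd ((hroot w hw').mp hu) (by omega)), hpm] at hs
      exact Nat.not_even_iff_odd.mpr ho hs
    · intro h
      refine A_iso_mem_inn hm1 h2 _ (orthDet_diagIso hm1 _) ?_
      by_cases hu : IsSquare (u : F)
      · exact hspin.1 hu
      · rw [hspin.2 hu, hpm]
        by_contra he
        refine h ⟨Nat.not_even_iff_odd.mp he, ?_⟩
        by_contra h1
        exact hu ((hroot w hw').mpr (by omega))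
  have ha2 : a * a ∈ I := by
    rw [haA, ← map_mul, ← map_mul, ← map_mul, show ((fun _ => u) * fun _ => u :
      Fin (n + 1) → Fˣ) = fun _ => u * u from rfl]
    refine A_iso_mem_inn hm1 h2 _ (orthDet_diagIso hm1 _) ((spinor_const hm1 h2 (u * u)).1 ?_)
    rw [Units.val_mul]; exact IsSquare.mul_self _
  have haC := hmemC d₀ (ptyPlus_diagGO hm1 _ _)
  have hle : I ⊔ (D ⊓ Subgroup.centralizer {Fd (qPlus (n + 1) F) σ'}) =
      I ⊔ Subgroup.zpowers a := by
    refine le_antisymm (sup_le le_sup_left ?_) (sup_le le_sup_left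
      ((Subgroup.zpowers_le.mpr haC).trans le_sup_right))
    rw [hcen]
    rintro _ ⟨g, hg, rfl⟩
    obtain ⟨g₀, hg₀⟩ := (range_liftJ_eq j σ' hj hQ (exists_ne_qPlus hm1) g.1).mp
      (congrArg Subtype.val (mem_fixSub.mp hg))
    show A (qPlus (n + 1) F) g.1 ∈ _
    have hp0 : ptyPlus (n + 1) g₀ = 1 := by rw [← hpar, hg₀]; exact g.2
    rw [← hg₀]
    have hV₀ := exists_ne_qPlus (F := F₀) (m := n + 1) hm1
    have step : ∀ y : GO (qPlus (n + 1) F₀), ptyPlus (n + 1) y = 1 →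
        IsSquare (sim hV₀ y : F₀) → A (qPlus (n + 1) F) (liftJ j hQ y) ∈ I := by
      intro y hy ⟨v, hv⟩
      have hv0 : v ≠ 0 := fun h => (sim hV₀ y).ne_zero (by rw [hv, h, mul_zero])
      obtain ⟨s, hs⟩ : y * (sc _ (Units.mk0 v hv0))⁻¹ ∈ (isoInc (qPlus (n + 1) F₀)).range := by
        rw [← sim_ker hV₀, MonoidHom.mem_ker, map_mul, map_inv, sim_sc, mul_inv_eq_one]
        exact Units.ext (by simpa using hv)
      have hs1 : ptyPlus (n + 1) (isoInc (qPlus (n + 1) F₀) s) = 1 := by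
        rw [hs, map_mul, map_inv, (isPar_plus hm1).scal, inv_one, mul_one, hy]
      have hinn := A_lift_iso_mem_inn j (by omega) h2 hsq s hs1
      rw [hs, map_mul, map_inv, liftJ_sc, map_mul, map_inv, (hA _).mpr ⟨_, rfl⟩, inv_one,
        mul_one] at hinn
      exact hinn
    by_cases hs : IsSquare (sim hV₀ g₀ : F₀)
    · exact Subgroup.mem_sup_left (step g₀ hp0 hs)
    · have h1 := step (g₀ * d₀⁻¹) (by
        rw [map_mul, map_inv, hp0, ptyPlus_diagGO hm1, inv_one, one_mul]) (by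
        rw [map_mul, map_inv, sim_diagGO, Units.val_mul, Units.val_inv_eq_inv_val]
        exact (binary_isSquare_mul_not (Units.ne_zero _)
          (fun h => hc (by simpa using h.inv))).mpr hs)
      rw [map_mul, map_inv, map_mul, map_inv] at h1
      rw [← inv_mul_cancel_right (A (qPlus (n + 1) F) (liftJ j hQ g₀)) a]
      exact Subgroup.mul_mem_sup h1 (Subgroup.mem_zpowers a)
  obtain ⟨k4, k2⟩ := relIndex_sup_zpowers hID (hmemC d₀ (ptyPlus_diagGO hm1 _ _)).1 ha2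
    (relIndex_inn_plus hn hodd hq4)
  rw [hle]
  by_cases h : Odd (n + 1) ∧ p ^ (f / 2) % 4 = 1
  · rw [if_pos h, k2 fun ha => hiff.mp ha h]
  · rw [if_neg h, k4 (hiff.mpr h)]

/-- The field statement for the plus type, given normality of `Inndiag`. -/
theorem field_plus (hn : 3 ≤ n)
    (hnorm : ((ptyPlus (n + 1)).ker.map (A (qPlus (n + 1) F))).Normal) {p f : ℕ}
    [Fact p.Prime] (hF : Fintype.card F = p ^ f) (hf : 1 ≤ f)
    (x : MulAut (Cfsg.POmega F ⇑(qPlus (n + 1) F)))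
    (hx : Cfsg.IsFieldAutClassPOmega ⇑(qPlus (n + 1) F) x) {r : ℕ} (hr : r.Prime)
    (hxr : orderOf x = r) (F₀ : Type v) [Field F₀] [Fintype F₀]
    (hF₀ : Fintype.card F₀ = p ^ (f / r)) :
    r ∣ f ∧
      Nonempty (↥((ptyPlus (n + 1)).ker.map (A (qPlus (n + 1) F)) ⊓ Subgroup.centralizer {x}) ≃*
        ↥((ptyPlus (n + 1)).ker.map (A (qPlus (n + 1) F₀)))) ∧
      ((Odd r ∨ p = 2) → Cfsg.splitClassCount ((ptyPlus (n + 1)).ker.map (A (qPlus (n + 1) F)))
        (Cfsg.Inn (Cfsg.POmega F ⇑(qPlus (n + 1) F))) x = 1) ∧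
      ((r = 2 ∧ p ≠ 2 ∧ Odd (n + 1) ∧ p ^ (f / 2) % 4 = 1) →
        Cfsg.splitClassCount ((ptyPlus (n + 1)).ker.map (A (qPlus (n + 1) F)))
          (Cfsg.Inn (Cfsg.POmega F ⇑(qPlus (n + 1) F))) x = 2) ∧
      ((r = 2 ∧ p ≠ 2 ∧ ¬ (Odd (n + 1) ∧ p ^ (f / 2) % 4 = 1)) →
        Cfsg.splitClassCount ((ptyPlus (n + 1)).ker.map (A (qPlus (n + 1) F)))
          (Cfsg.Inn (Cfsg.POmega F ⇑(qPlus (n + 1) F))) x = 4) := by
  classical
  obtain ⟨α, φ, σ, hσ1, hφ, hαx⟩ := hx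
  let σ' : fieldSub (qPlus (n + 1) F) := ⟨σ, by rw [fieldSub_qPlus]; trivial⟩
  rw [show σ = (σ' : F ≃+* F) from rfl, isField_iff] at hφ
  subst hφ
  have hord : orderOf (σ' : F ≃+* F) = r := by
    rw [← orderOf_Fd' hn, ← hαx, ← MulAut.conj_apply, MulEquiv.orderOf_eq, hxr]
  have hrf : r ∣ f := hord ▸ ringAut_order_dvd hF hf (σ' : F ≃+* F)
  obtain ⟨j, hj⟩ := AutPSL.exists_fixedField hF hord hr.pos hrf F₀ hF₀
  have hQ : ∀ v, qPlus (n + 1) F (⇑j ∘ v) = j (qPlus (n + 1) F₀ v) := fun v => qPlus_comp j v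
  have hm1 : 1 ≤ n + 1 := by omega
  have hA := fun g : GO (qPlus (n + 1) F) =>
    A_eq_one_iff' (Forms.qPlus_nondegenerate (m := n + 1)) (by simp; omega) g
  have hA₀ := fun g : GO (qPlus (n + 1) F₀) =>
    A_eq_one_iff' (Forms.qPlus_nondegenerate (m := n + 1)) (by simp; omega) g
  have hdim : 5 ≤ Fintype.card (Fin (n + 1) ⊕ Fin (n + 1)) := by simp; omega
  have T := plusFieldTwist' hn hr.pos hord
  haveI := hnorm
  set D := (ptyPlus (n + 1)).ker.map (A (qPlus (n + 1) F)) with hD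
  set I := Cfsg.Inn (Cfsg.POmega F ⇑(qPlus (n + 1) F)) with hI
  have hID : I ≤ D := inn_le_plus hn
  have hcen : D ⊓ Subgroup.centralizer {Fd (qPlus (n + 1) F) σ'} =
      (fixSub (kerMap (ptyPlus (n + 1)) (mapGO σ') fun g => ptyPlus_mapGO (by omega) σ' g)).map
        ((A (qPlus (n + 1) F)).comp (ptyPlus (n + 1)).ker.subtype) := by
    rw [hD, ← range_comp_ker]; exact T.centralizer_eq
  have hcount : Cfsg.splitClassCount D I x =
      (I ⊔ (D ⊓ Subgroup.centralizer {Fd (qPlus (n + 1) F) σ'})).relIndex D := by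
    rw [← splitClassCount_conj D I α, hαx, splitClassCount_eq_relIndex _ _ hID]
  have hpar : ∀ g₀, ptyPlus (n + 1) (liftJ j hQ g₀) = ptyPlus (n + 1) g₀ :=
    par_comp j hQ Forms.qPlus_nondegenerate hdim (isPar_plus hm1) (isPar_plus hm1) (liftJ j hQ)
      (liftJ_val j hQ)
  have hmemC : ∀ g₀, ptyPlus (n + 1) g₀ = 1 → A (qPlus (n + 1) F) (liftJ j hQ g₀) ∈
      D ⊓ Subgroup.centralizer {Fd (qPlus (n + 1) F) σ'} := by
    intro g₀ hg₀
    rw [hcen]
    exact ⟨⟨liftJ j hQ g₀, (hpar g₀).trans hg₀⟩, mem_fixSub.mpr (Subtype.ext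
      ((range_liftJ_eq j σ' hj hQ (exists_ne_qPlus hm1) _).mpr ⟨g₀, rfl⟩)), rfl⟩
  refine ⟨hrf, ?_, fun hc => ?_, ?_⟩
  · obtain ⟨e1⟩ := centralizer_conj D α x
    rw [hαx, hcen] at e1
    obtain ⟨e2⟩ := fix_equiv j σ' hj hQ Forms.qPlus_nondegenerate hdim hA hA₀ (isPar_plus hm1)
      (isPar_plus hm1) (fun g => ptyPlus_mapGO (by omega) σ' g)
    exact ⟨e1.trans e2⟩
  · rw [hcount, Subgroup.relIndex_eq_one]
    rintro _ ⟨g, hg, rfl⟩
    have hns : ∀ a : F₀, (2 : F) ≠ 0 → IsSquare (j a) → IsSquare a := by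
      intro a h2 ha
      rcases hc with hodd | hp2
      · exact isSquare_of_hom_odd j (σ' : F ≃+* F) hj
          (by rw [← hord, pow_orderOf_eq_one]) h2 hodd a ha
      · refine absurd ?_ h2
        subst hp2
        haveI : CharP F 2 := charP_of_card_eq_prime_pow hF
        exact CharTwo.two_eq_zero
    obtain ⟨g₀, hg₀, hinn⟩ := exists_inn_mul_rational j hQ Forms.qPlus_nondegenerate
      Forms.qPlus_nondegenerate hdim (isPar_plus hm1) (isPar_plus hm1)
      (sim_surjective_plus hm1) hns (fun u => (hA _).mpr ⟨u, rfl⟩) g hg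
    rw [← inv_mul_cancel_right (A _ g) (A _ (liftJ j hQ g₀))]
    exact Subgroup.mul_mem_sup hinn (hmemC g₀ hg₀)
  suffices key : r = 2 → p ≠ 2 → Cfsg.splitClassCount D I x =
      if Odd (n + 1) ∧ p ^ (f / 2) % 4 = 1 then 2 else 4 from
    ⟨fun ⟨h1, h2, h3⟩ => by rw [key h1 h2, if_pos h3],
      fun ⟨h1, h2, h3⟩ => by rw [key h1 h2, if_neg h3]⟩
  intro hr2 hp2
  subst hr2
  rw [hcount]
  exact relIndex_quadratic hn hF hp2 hrf hF₀ j σ' hj (fun g => ptyPlus_mapGO (by omega) σ' g) hcen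

end Main

end Cfsg.Agent.KnownB.Proj.Orth

namespace Cfsg.Agent.KnownB.Proj.Orth

open Cfsg.Agent.Forms (qPlus)

universe u v

variable {F : Type u} [Field F] [Fintype F] {n : ℕ}

/-- The field statement, on any presentation of the forms. -/
theorem field_plus_model (hn : 3 ≤ n)
    (hnorm : ((ptyPlus (n + 1)).ker.map (A (qPlus (n + 1) F))).Normal) {p f : ℕ}
    [Fact p.Prime] (hF : Fintype.card F = p ^ f) (hf : 1 ≤ f)
    (Qf : (Fin (n + 1) ⊕ Fin (n + 1) → F) → F) (hQf : ⇑(qPlus (n + 1) F) = Qf)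
    (x : MulAut (Cfsg.POmega F Qf)) (hx : Cfsg.IsFieldAutClassPOmega Qf x)
    {r : ℕ} (hr : r.Prime) (hxr : orderOf x = r) (F₀ : Type v) [Field F₀] [Fintype F₀]
    (hF₀ : Fintype.card F₀ = p ^ (f / r))
    (Qf₀ : (Fin (n + 1) ⊕ Fin (n + 1) → F₀) → F₀) (hQf₀ : ⇑(qPlus (n + 1) F₀) = Qf₀) :
    let H := Cfsg.autSubgroupOf fun β : MulAut (Cfsg.POmega F Qf) =>
      ∃ g : GL (Fin (n + 1) ⊕ Fin (n + 1)) F, g ∈ Cfsg.Geo.quadSimilarityGroup (F := F) Qf ∧
        Cfsg.PreservesSingularClasses Qf (g : Matrix _ _ F) ∧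
        Cfsg.IsInducedBySemilinearPOmega Qf g (RingEquiv.refl F) β
    let H₀ := Cfsg.autSubgroupOf fun β : MulAut (Cfsg.POmega F₀ Qf₀) =>
      ∃ g : GL (Fin (n + 1) ⊕ Fin (n + 1)) F₀, g ∈ Cfsg.Geo.quadSimilarityGroup (F := F₀) Qf₀ ∧
        Cfsg.PreservesSingularClasses Qf₀ (g : Matrix _ _ F₀) ∧
        Cfsg.IsInducedBySemilinearPOmega Qf₀ g (RingEquiv.refl F₀) β
    r ∣ f ∧ Nonempty (↥(H ⊓ Subgroup.centralizer {x}) ≃* ↥H₀) ∧
      ((Odd r ∨ p = 2) → Cfsg.splitClassCount H (Cfsg.Inn (Cfsg.POmega F Qf)) x = 1) ∧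
      ((r = 2 ∧ p ≠ 2 ∧ Odd (n + 1) ∧ p ^ (f / 2) % 4 = 1) →
        Cfsg.splitClassCount H (Cfsg.Inn (Cfsg.POmega F Qf)) x = 2) ∧
      ((r = 2 ∧ p ≠ 2 ∧ ¬ (Odd (n + 1) ∧ p ^ (f / 2) % 4 = 1)) →
        Cfsg.splitClassCount H (Cfsg.Inn (Cfsg.POmega F Qf)) x = 4) := by
  subst hQf hQf₀
  intro H H₀
  have hH : H = (ptyPlus (n + 1)).ker.map (A (qPlus (n + 1) F)) := inndiag_plus_eq _
  have hH₀ : H₀ = (ptyPlus (n + 1)).ker.map (A (qPlus (n + 1) F₀)) := inndiag_plus_eq _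
  rw [hH, hH₀]
  exact field_plus hn hnorm hF hf x hx hr hxr F₀ hF₀

end Cfsg.Agent.KnownB.Proj.Orth
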